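import Cfsg.Agent.Class.C3.Special
import Cfsg.Agent.Class.C6.AlphaU
import Cfsg.Agent.Class.DecSL
import Cfsg.Agent.Class.SU.Dec

/-!
# Step (α): centralisers inducing the special linear or unitary group on an eigenspace
-/

namespace Cfsg.Lib.Class.C3

open Module Submodule C6 Mono FE Form

section TCtx

variable {F V : Type*} [Field F] [AddCommGroup V] [Module F V] [FiniteDimensional F V] {τ : Type}
  [Fintype τ] {D : τ → Submodule F V} {p : τ → V →ₗ[F] V} {X : Subgroup (V ≃ₗ[F] V)} {i j : τ}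
  {a b c : V} {φ ψ χ : Dual F V} {m : ℕ}

/-- `X` contains the special linear groups of the summands of a decomposition -/
structure TCtx (D : τ → Submodule F V) (p : τ → V →ₗ[F] V) (m : ℕ) (X : Subgroup (V ≃ₗ[F] V)) :
    Prop where
  proj : IsDecProj D p
  dim : ∀ i, finrank F (D i) = m
  three : 3 ≤ m
  tv : ∀ {i u ψ}, u ∈ D i → Sup p i ψ → ψ u = 0 → TvIn X u ψ

namespace TCtx

theorem left (h : TCtx D p m X) (h1 : TvIn X a φ) (hb : b ∈ D i) (h2 : φ b = 0)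
    (h3 : p i a ∉ span F {b}) : FullTv X b φ := fun s ↦ by
  obtain ⟨ψ, h4, h5, h6⟩ := exists_sup_pair h.proj (h.proj.mem i a) hb h3
  simpa [← h4 a, h6] using h1.comm (h.tv ((D i).smul_mem s hb) h4 (by simp [h5])) (by simp [h2])

omit [FiniteDimensional F V] in
theorem right (h : TCtx D p m X) (h1 : TvIn X a φ) (hχ : Sup p j χ) (h2 : χ a = 0) (hc : c ∈ D j)
    (h3 : χ c = 0) (h4 : φ c ≠ 0) : FullTv X a χ := fun s ↦ by
  simpa [h4] using (h.tv ((D j).smul_mem (s / φ c) hc) hχ (by simp [h3])).comm h1 h2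

theorem all_of_full (h : TCtx D p m X) (hij : i ≠ j) (hb : b ∈ D i) (hb0 : b ≠ 0) (hχ : Sup p j χ)
    (hχ0 : χ ≠ 0) (h1 : FullTv X b χ) (ha : a ∈ D i) (hψ : Sup p j ψ) : TvIn X a ψ := by
  have h2 : FullTv X b ψ := by
    by_cases e : χ ∈ span F {ψ}
    · obtain ⟨s, rfl⟩ := mem_span_singleton.1 e
      exact h1.of_smul_right (left_ne_zero_of_smul hχ0)
    · obtain ⟨d, h3, h4⟩ := Tens.exists_pair_of_notMem e 1
      exact h.right (by simpa using h1 1) hψ (hψ.eq_zero h.proj hij.symm hb) (h.proj.mem j d)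
        (by rw [hψ, h3]) (by simp [hχ d, h4])
  by_cases e : b ∈ span F {a}
  · obtain ⟨s, rfl⟩ := mem_span_singleton.1 e
    simpa using h2.of_smul (left_ne_zero_of_smul hb0) 1
  · simpa using h.left (by simpa using h2 1) ha (hψ.eq_zero h.proj hij.symm ha)
      (by rwa [h.proj.self i b hb]) 1

theorem exists_block (h : TCtx D p m X) (h1 : TvIn X a φ) (ha : p i a ≠ 0) :
    ∃ b ∈ D i, b ≠ 0 ∧ TvIn X b φ := by
  obtain ⟨α, hα, hα1⟩ := exists_sup_one h.proj (h.proj.mem i a) ha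
  obtain ⟨b, h4, h5, h6⟩ := Tens.exists_two_zero (h.three.trans_eq (h.dim i).symm)
    (φ ∘ₗ (D i).subtype) (α ∘ₗ (D i).subtype)
  have := h.left h1 b.2 h5 (fun e => by
    obtain ⟨s, hs⟩ := mem_span_singleton.1 e
    rw [← hs, map_smul, show α b = 0 from h6] at hα1
    simp at hα1) 1
  exact ⟨b, b.2, by simpa using h4, by simpa using this⟩

theorem SLV_le (h : TCtx D p m X)
    (hx : ∀ i j, i ≠ j → ∃ a φ, TvIn X a φ ∧ p i a ≠ 0 ∧ ∃ c ∈ D j, φ c ≠ 0) : SLV F V ≤ X := by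
  classical
  obtain ⟨e, h2, h3⟩ := exists_coord_equiv h.proj h.dim
  refine SLV_le_of_elementary e X fun x y hxy c ↦ ?_
  by_cases hij : x.1 = y.1
  · exact h.tv (smul_mem _ c (h2 x)) (hij ▸ h3 y) (by simp [ratC_apply, apply_ratB, hxy.symm])
  obtain ⟨a, φ, h4, h5, d, hd, h6⟩ := hx _ _ hij
  obtain ⟨b, hb, hb0, h7⟩ := h.exists_block h4 h5
  obtain ⟨χ, hχ, h10, z, -, h11⟩ := exists_sup_zero h.proj
    (by have := h.three; rw [h.dim]; omega) hd
  exact h.all_of_full hij hb hb0 hχ (fun e ↦ by simp [e] at h11)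
    (h.right h7 hχ (hχ.eq_zero h.proj (Ne.symm hij) hb) hd h10 h6) (smul_mem _ c (h2 x)) (h3 y)

end TCtx

end TCtx

variable {K V W : Type*} [Field K] [AddCommGroup V] [Module K V] [AddCommGroup W]
  [Module (ZMod 3) W] {σ : K →+* K} {B : V →ₛₗ[σ] V →ₗ[K] K}

theorem det_eq_of_fix [FiniteDimensional K V] {U U' : Submodule K V} (hc : IsCompl U U')
    {k : U ≃ₗ[K] U} {g : V ≃ₗ[K] V} (e1 : ∀ v, (k v : V) = g v) (e2 : ∀ v ∈ U', g v = v) :
    LinearEquiv.det g = LinearEquiv.det k := by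
  let e := Submodule.prodEquivOfIsCompl _ _ hc
  have : (g : V →ₗ[K] V) = (e : _ →ₗ[K] V) ∘ₗ
      ((k : U →ₗ[K] U).prodMap LinearMap.id) ∘ₗ e.symm.toLinearMap := by
    ext v
    obtain ⟨⟨x, y⟩, rfl⟩ := e.surjective v
    simp [e, ← e1, e2 y y.2]
  refine Units.ext ?_
  rw [LinearEquiv.coe_det, this, LinearMap.det_conj, LinearMap.det_prodMap, LinearMap.det_id,
    mul_one, LinearEquiv.coe_det]

/-- A subgroup normalised by `SU` that contains a non-scalar isometry contains `SU`. -/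
theorem SUV_le_of_norm3 [Finite K] [FiniteDimensional K V] (h : Herm B) (hn : 3 ≤ finrank K V)
    (hq : ∃ a, σ a = a ∧ a ≠ 0 ∧ a ≠ 1)
    {Y : Subgroup (V ≃ₗ[K] V)} (hY : ∀ k ∈ SUV B, ∀ y ∈ Y, k * y * k⁻¹ ∈ Y) {d : V ≃ₗ[K] V}
    (hd : d ∈ Y) (hdB : d ∈ isomGroup B) (hns : ¬ ∃ a : K, ∀ v, d v = a • v) : SUV B ≤ Y := by
  let N : Subgroup (sIsom B) := Y.comap ((isomGroup B).subtype.comp (sIsom B).subtype)
  have hN : N.Normal := ⟨fun n hn g => hY _ (coe_mem_SUV g.2) _ hn⟩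
  rcases h.normal_le_center_or_eq_top hn (fun _ => hq) N hN with hc | hc
  swap
  · rintro _ ⟨g, hg, rfl⟩
    exact (hc.ge (Subgroup.mem_top _) : (⟨g, hg⟩ : sIsom B) ∈ N)
  refine absurd (h.exists_eq_smul_of_isotropic (by omega) (d : V →ₗ[K] V) fun z hz => ?_) hns
  obtain ⟨δ, hδ0, hδ⟩ := h.exists_trace_zero
  by_cases hz0 : z = 0
  · exact ⟨0, by simp [hz0]⟩
  let t := h.transv z hz δ hδ
  have ht : t ∈ sIsom B := h.transv_mem_sIsom ..
  let D : isomGroup B := ⟨d, hdB⟩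
  have h1 : t * D * t⁻¹ * D⁻¹ ∈ sIsom B := by
    rw [mul_assoc, mul_assoc, ← mul_assoc D]
    exact mul_mem ht ((sIsom_normal B).conj_mem _ (inv_mem ht) D)
  obtain ⟨a, ha⟩ := (h.mem_center_sIsom_iff (by omega)).1 (hc (x := ⟨_, h1⟩)
    (mul_mem (hY _ (coe_mem_SUV ht) _ hd) (inv_mem hd)))
  have h2 : ∀ x, d x + (δ * B z (d x)) • z = a • (d x + (δ * B z x) • d z) := fun x => by
    have := ha (d ((t : V ≃ₗ[K] V) x))
    change (t : V ≃ₗ[K] V) (d ((t : V ≃ₗ[K] V)⁻¹ (d⁻¹ (d ((t : V ≃ₗ[K] V) x))))) = _ at this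
    rwa [inv_apply_apply, inv_apply_apply, h.transv_apply, h.transv_apply, map_add, map_smul] at this
  obtain ⟨x, -, hx, hx0⟩ := exists_mem_kerL_notMem (F := K) (⊤ : Submodule K V)
    [B z, B z ∘ₗ (d : V →ₗ[K] V)] [] (by rw [finrank_top]; simp; omega)
  have h3 : B z x = 0 := hx _ (by simp)
  have h4 : B z (d x) = 0 := hx (B z ∘ₗ (d : V →ₗ[K] V)) (by simp)
  have h5 : a = 1 := by
    have := h2 x
    simp only [h3, h4, mul_zero, zero_smul, add_zero] at this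
    by_contra h5
    refine ne_zero_of_notMem_spanL hx0 (d.map_eq_zero_iff.1 ?_)
    rw [← sub_eq_zero, ← one_smul K (d x), smul_smul, mul_one, ← sub_smul] at this
    exact (smul_eq_zero.1 this).resolve_left (sub_ne_zero.2 (Ne.symm h5))
  obtain ⟨x, hx⟩ := h.exists_ne hz0
  have := h2 x
  rw [h5, one_smul, add_right_inj] at this
  refine ⟨(δ * B z x)⁻¹ * (δ * B z (d x)), ?_⟩
  rw [mul_smul, this, smul_smul, inv_mul_cancel₀ (mul_ne_zero hδ0 hx), one_smul]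
  rfl

namespace Pau

variable {P : Pau K V W} {u w y a b : W} {i j k : ZMod 3} {v : V} {g : V ≃ₗ[K] V}
  {X : Subgroup (V ≃ₗ[K] V)}

theorem τ_eq (k : ZMod 3) (y : W) (v : V) : P.τ y k v = ((3 : K)⁻¹ * (1 + 2 * P.χ k)) • v +
    ((3 : K)⁻¹ * (1 - P.χ k)) • (P.ρ y v + P.ρ (-y) v) := by
  have h := P.χv_sum (a := 1) (by decide)
  conv_lhs => rw [← P.sum_pr y v, map_add, map_add, τ_apply (P.pr_mem ..), τ_apply (P.pr_mem ..),
    τ_apply (P.pr_mem ..)]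
  simp only [pr_apply, mul_zero, mul_one, mul_neg, neg_neg, neg_zero, χ_zero, Units.val_one]
  match_scalars
  · ring
  · linear_combination (3 : K)⁻¹ * P.χ k * h
  · linear_combination (3 : K)⁻¹ * P.χ k * h

theorem g0_ne (hk : k ≠ 0) : (3 : K)⁻¹ * (1 + 2 * P.χ k) ≠ 0 :=
  mul_ne_zero (inv_ne_zero P.three) fun e => P.three (by
    have h1 := P.χv_sum hk
    have h2 := P.χv_mul k k
    rw [add_self3] at h2
    linear_combination 4 * h1 + 4 * h2 - (1 + 2 * P.χ k) * e)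

theorem g1_ne (hk : k ≠ 0) : (3 : K)⁻¹ * (1 - P.χ k) ≠ 0 :=
  mul_ne_zero (inv_ne_zero P.three) fun e => hk (P.χv_inj (by simpa using (sub_eq_zero.1 e).symm))

theorem pr_τ_self (hy : P.β u y = 1) (k : ZMod 3) (hv : v ∈ P.Ve u j) :
    P.pr u j (P.τ y k v) = ((3 : K)⁻¹ * (1 + 2 * P.χ k)) • v := by
  have h := P.isDecProj u
  rw [τ_eq k, map_add, map_smul, map_smul, map_add, h.self j v hv,
    h.ne j _ (by simp [hy]) _ (ρ_mem_Ve hv y), h.ne j _ (by simp [hy]) _ (ρ_mem_Ve hv (-y))]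
  simp

theorem pr_τ_ne (hy : P.β u y = 1) (hk : k ≠ 0) (hv : v ∈ P.Ve u j) (h0 : v ≠ 0) (i : ZMod 3) :
    P.pr u i (P.τ y k v) ≠ 0 := by
  have h := P.isDecProj u
  have h1 := ρ_mem_Ve hv y
  have h2 := ρ_mem_Ve hv (-y)
  rw [map_neg, hy] at h2
  rw [hy] at h1
  rcases (by decide : ∀ i j : ZMod 3, i = j ∨ i = j + 1 ∨ i = j + -1) i j with rfl | rfl | rfl
  · rw [pr_τ_self hy k hv]; exact smul_ne_zero (g0_ne hk) h0
  · rw [τ_eq k, map_add, map_smul, map_smul, map_add, h.self _ _ h1, h.ne _ _ (by simp) _ hv,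
      h.ne _ _ (by simp; decide) _ h2]
    simpa [h0] using g1_ne (P := P) hk
  · rw [τ_eq k, map_add, map_smul, map_smul, map_add, h.self _ _ h2, h.ne _ _ (by simp) _ hv,
      h.ne _ _ (by simp; decide) _ h1]
    simpa [h0] using g1_ne (P := P) hk

theorem H1.exists_triv (h : P.H1 X) (ha : P.β u a = 0) (m : ZMod 3) : ∃ x : P.Cu X u, ∀ i,
    ∀ v ∈ P.Ve u i, x.1 v = (P.χ (m * m - i * i) : K) • P.ρ ((i - m) • a) v := by
  have e : ∀ i, ∀ v ∈ P.Ve u i, (C6.sc V (P.χ (m * m)) * P.ρ (-m • a) * (P.τ a 1 * P.τ (a + u) (-1))) v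
      = (P.χ (m * m - i * i) : K) • P.ρ ((i - m) • a) v := fun i v hv => by
    simp only [LinearEquiv.mul_apply, τ_τ_apply ha hv, map_smul, sc_apply, smul_smul, χv_mul, P.ρ_ρ,
      LinearMap.smul_apply, P.alt, smul_zero, neg_zero, ← add_smul]
    congr 4 <;> ring
  exact ⟨⟨_, P.mem_Cu.2 ⟨mul_mem (mul_mem (h.sc _) (h.ρ _)) (mul_mem (h.2 _ _) (h.2 _ _)),
    commute_of_Ve fun i v hv => by
      rw [e i v hv]; exact Submodule.smul_mem _ _ (ρ_mem_Ve' hv (by simp [ha]))⟩⟩, e⟩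

theorem H1.le_kerX (h : P.H1 X) (h4 : finrank (ZMod 3) W = 4) (hy : P.β u y = 1)
    {S : Subgroup (P.Ve u j ≃ₗ[K] P.Ve u j)} (hS : S ≤ (P.rV X u j).range)
    (hN : ∀ Y : Subgroup (P.Ve u j ≃ₗ[K] P.Ve u j), (∀ k ∈ S, ∀ y ∈ Y, k * y * k⁻¹ ∈ Y) →
      ∀ m, ∀ a ≠ 0, C6.sc _ (P.χ m) * (P.res hy j).ρ a ∈ Y → S ≤ Y)
    (hτ : ∀ a ≠ 0, ∀ b ≠ 0, (P.res hy j).τ b 1 * (P.res hy j).τ a (-1) ∈ S) : S ≤ P.kerX X u j := by
  have := nontriv2 (finrank_W1_two h4 hy)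
  set Q := P.res hy j
  obtain ⟨a, b, hab⟩ := Q.exists_hyp
  let Y : Subgroup (P.Cu X u) :=
    { carrier := {x | ∀ v ∈ P.Ve u (j - 1), x.1 v = v}
      one_mem' := fun _ _ => rfl
      mul_mem' := fun {x x'} hx hx' v hv => by
        rw [Subgroup.coe_mul, LinearEquiv.mul_apply, hx' v hv, hx v hv]
      inv_mem' := fun {x} hx v hv => x.1.injective (by
        rw [hx v hv]; exact apply_inv_apply _ _) }
  obtain ⟨x, hx⟩ := h.exists_triv a.2.1 (j - 1)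
  obtain ⟨x', hx'⟩ := h.exists_triv (neg_mem a.2).1 (j + 1)
  have h1 := hN (Y.map (P.rV X u j)) (by
      rintro k hk _ ⟨z, hz, rfl⟩
      obtain ⟨k, rfl⟩ := hS hk
      refine ⟨k * z * k⁻¹, fun v hv => ?_, by simp⟩
      change k.1 (z.1 (k.1⁻¹ v)) = v
      rw [hz _ (map_mem_Ve (P.mem_Cu.1 k.2).2.inv_left hv), apply_inv_apply])
    _ a (ne_zero_of_β hab) ⟨x, fun v hv => by simp [hx _ v hv, P.zero],
      LinearEquiv.ext fun v => Subtype.ext ((hx j v v.2).trans (by simp; rfl))⟩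
  obtain ⟨z, hz, e⟩ := h1 (hτ a (ne_zero_of_β hab) b (ne_zero_of_β' hab))
  have e' : P.rV X u j x' = C6.sc _ (P.χ ((j + 1) * (j + 1) - j * j)) * Q.ρ a :=
    LinearEquiv.ext fun v => Subtype.ext ((hx' j v v.2).trans (by simp; rfl))
  have h2 := comm_mem_kerX (j := j) (x := x') (x' := z) (fun v hv => by simp [hx' _ v hv, P.zero]) hz
  have h3 := ((Q.ind_τ b 1).mul (Q.ind_τ a (-1))) (-a)
  rw [e, e', ← one_mul (Q.τ b 1 * _), ← map_one (C6.sc (K := K) _), comm_sc_mul, mul_assoc, mul_assoc,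
    ← mul_assoc (Q.τ b 1 * _), ρ_inv, h3, ← mul_assoc, sc_comm, mul_assoc, Q.mul', ← mul_assoc,
    ← map_mul, ← χ_add] at h2
  exact hN _ (fun k hk y hy => conj_mem_kerX (hS hk) hy) _ _ (by
    simp [tv_apply, Q.alt, hab, ne_zero_of_β' hab]) h2

theorem SLV_le_of_mem (h3 : 3 ≤ finrank K V) (hX : ∀ k ∈ SLV K V, ∀ y ∈ X, k * y * k⁻¹ ∈ X)
    {c : Kˣ} (ha : a ≠ 0) (h : C6.sc V c * P.ρ a ∈ X) : SLV K V ≤ X := by
  have := P.fd
  obtain ⟨w, hw, hw0⟩ := exists_mem_Ve (P := P) ha 0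
  obtain ⟨w', hw', hw0'⟩ := exists_mem_Ve (P := P) ha 1
  obtain ⟨φ, h1, h2⟩ := exists_sup_one (P.isDecProj a) hw' hw0'
  have h0 : φ w = 0 := h1.eq_zero (P.isDecProj a) (by decide) hw
  have h4 : ∀ x, φ (P.ρ (-a) x) = P.χ (-1) * φ x := fun x =>
    LinearMap.congr_fun ((P.isDecProj a).ext (f := φ ∘ₗ (P.ρ (-a) : V →ₗ[K] V))
      (g := (P.χ (-1) : K) • φ) fun j x hx => by
        by_cases hj : 1 = j
        · subst hj; simp [ρ_neg_apply hx]
        · simp [ρ_neg_apply hx, h1.eq_zero (P.isDecProj a) hj hx]) x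
  obtain ⟨-, t, ht, e⟩ := tvIn_SLV h0
  have e' : ∀ x, t⁻¹ x = x - φ x • w := fun x => t.injective (by
    rw [apply_inv_apply, e]; simp [h0])
  refine SLV_le_of_norm h3 hX (a := w) (φ := (1 - P.χ (-1) : K) • φ)
    ⟨by simp [h0], _, mul_mem (hX t ht _ h) (inv_mem h), fun x => ?_⟩ hw0 fun h5 => ?_
  · rw [mul_inv_rev, P.ρ_inv, ← map_inv]
    simp only [LinearEquiv.mul_apply, sc_apply, e', e, map_sub, map_smul, h4, ρ_ρ_neg,
      P.mem_Ve.1 hw, h0, LinearMap.smul_apply, Units.val_inv_eq_inv_val, smul_eq_mul, χ_zero,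
      Units.val_one]
    match_scalars <;> field_simp
    ring
  · have := congrArg (fun f : Dual K V => f w') h5
    simp only [LinearMap.smul_apply, h2, smul_eq_mul, mul_one, LinearMap.zero_apply] at this
    exact g1_ne (P := P) (k := -1) (by decide) (by rw [this, mul_zero])

theorem τ_τ_mem_SLV (ha : a ≠ 0) (hb : b ≠ 0) : P.τ b 1 * P.τ a (-1) ∈ SLV K V := by
  have h1 := P.three_mul_finrank_Ve ha 0
  have h2 := P.three_mul_finrank_Ve hb 0
  rw [MonoidHom.mem_ker, map_mul, det_τ ha, det_τ hb,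
    show finrank K (P.Ve a 0) = finrank K (P.Ve b 0) by omega, ← mul_pow, ← χ_add]
  simp

theorem finrank_Ve (h4 : finrank (ZMod 3) W = 4) (hu : u ≠ 0) (j : ZMod 3) :
    finrank K (P.Ve u j) = 3 := by
  have h1 := P.three_mul_finrank_Ve hu j
  rw [P.finrank_eq (m := 2) h4] at h1
  omega

/-- (α) for the linear groups. -/
theorem H1.SLV_le (h : P.H1 X) (h4 : finrank (ZMod 3) W = 4) (hy : P.β u y = 1)
    (hS : SLV K (P.Ve u j) ≤ (P.rV X u j).range) : SLV K V ≤ X := by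
  have := P.fd
  have hu := ne_zero_of_β hy
  have hD := P.isDecProj u
  have h1 := h.le_kerX h4 hy hS (fun Y hY m a ha e => SLV_le_of_mem (finrank_Ve h4 hu j).ge hY ha e)
    fun a ha b hb => τ_τ_mem_SLV ha hb
  have h2 : ∀ a ∈ P.Ve u j, ∀ φ, Sup (P.pr u) j φ → φ a = 0 → TvIn X a φ := fun a ha φ hφ h0 => by
    obtain ⟨-, k, hk, e⟩ := tvIn_SLV (a := (⟨a, ha⟩ : P.Ve u j)) (φ := φ.domRestrict _) h0
    obtain ⟨-, t, -, et⟩ := tvIn_SLV h0
    exact ⟨h0, t, eq_of_kerX (h1 hk) (fun v => by rw [e, et]; rfl)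
      fun i hi v hv => by simp [et, hφ.eq_zero hD hi.symm hv], et⟩
  have h3 : TCtx (P.Ve u) (P.pr u) 3 X := ⟨hD, finrank_Ve h4 hu, le_rfl, fun {i a φ} ha hφ h0 => by
    have e : ∀ m, ∀ v ∈ P.Ve u m, P.ρ ((i - j) • y) v ∈ P.Ve u (m + (i - j)) := fun m v hv => by
      simpa [hy] using ρ_mem_Ve hv ((i - j) • y)
    have := (h2 (P.ρ (-((i - j) • y)) a) (by simpa [hy] using ρ_mem_Ve ha (-((i - j) • y)))
      (φ ∘ₗ (P.ρ ((i - j) • y) : V →ₗ[K] V)) (fun v => LinearMap.congr_fun (hD.ext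
        (f := (φ ∘ₗ (P.ρ ((i - j) • y) : V →ₗ[K] V)) ∘ₗ P.pr u j) fun m v hv => by
          by_cases hm : j = m
          · subst hm; simp [hD.self _ v hv]
          · simp [hD.ne _ _ hm v hv, hφ.eq_zero hD (fun e' => hm (by linear_combination e')) (e m v hv)]) v)
      (by simp [h0])).conj (h.ρ ((i - j) • y)) (ψ := φ) fun _ => rfl
    rwa [ρ_ρ_neg] at this⟩
  refine h3.SLV_le fun i m him => ?_
  obtain ⟨a, ha, ha0⟩ := exists_mem_Ve (P := P) hu m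
  obtain ⟨φ, h5, h6, c, hc, h7⟩ := exists_sup_zero hD (by rw [finrank_Ve h4 hu]; omega) ha
  refine ⟨_, _, (h3.tv ha h5 h6).conj' (h.2 y 1), pr_τ_ne hy (by decide) ha ha0 i, c, hc, ?_⟩
  change φ ((P.τ y 1)⁻¹ c) ≠ 0
  rw [τ_inv, ← h5, pr_τ_self hy _ hc, map_smul, h7, smul_eq_mul, mul_one]
  exact g0_ne (by decide)

/-- the hypotheses of the unitary case -/
structure Un (P : Pau K V W) (B : V →ₛₗ[σ] V →ₗ[K] K) : Prop where
  herm : Herm B
  iso : ∀ u, P.ρ u ∈ isomGroup B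
  conj : ∀ k, σ (P.χ k) * P.χ k = 1

theorem Un.orth (h : P.Un B) (u : W) : ∀ i j, i ≠ j → ∀ a ∈ P.Ve u i, ∀ b ∈ P.Ve u j, B a b = 0 :=
  fun i j hij a ha b hb => by
    have := mem_isomGroup.1 (h.iso u) a b
    rw [P.mem_Ve.1 ha, P.mem_Ve.1 hb] at this
    simp only [map_smulₛₗ, LinearMap.smul_apply, smul_eq_mul, RingHom.id_apply] at this
    refine (mul_eq_zero.1 (?_ : ((P.χ j : K) - P.χ i) * B a b = 0)).resolve_left fun e =>
      hij (P.χv_inj (sub_eq_zero.1 e)).symm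
    linear_combination (P.χ i : K) * this - P.χ j * B a b * h.conj i

theorem Un.uDec (h : P.Un B) (u : W) : UDec B (P.Ve u) (P.pr u) := ⟨h.herm, P.isDecProj u, h.orth u⟩

theorem Un.mem_of_dg (h : P.Un B) {c : ZMod 3 → ZMod 3}
    (e : ∀ i, ∀ v ∈ P.Ve u i, g v = (P.χ (c i) : K) • v) : g ∈ isomGroup B := fun x y => by
  change B (g x) (g y) = B x y
  rw [← (P.isDecProj u).sum x, ← (P.isDecProj u).sum y]
  simp only [map_sum, LinearMap.sum_apply, e _ _ (P.pr_mem ..), map_smulₛₗ, LinearMap.smul_apply,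
    smul_eq_mul, RingHom.id_apply, Finset.mul_sum]
  refine Finset.sum_congr rfl fun j _ => Finset.sum_congr rfl fun i _ => ?_
  by_cases hij : i = j
  · subst hij; linear_combination B _ _ * h.conj (c i)
  · simp [h.orth u i j hij _ (P.pr_mem ..) _ (P.pr_mem ..)]

theorem Un.τ_mem (h : P.Un B) (a : W) (k : ZMod 3) : P.τ a k ∈ isomGroup B :=
  h.mem_of_dg fun _ _ hv => τ_apply hv k

theorem Un.sub (h : P.Un B) {S : Submodule (ZMod 3) W} {U : Submodule K V}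
    {hU : ∀ w ∈ S, ∀ v ∈ U, P.ρ w v ∈ U} {hS : ∀ w ∈ S, (∀ w' ∈ S, P.β w w' = 0) → w = 0}
    {hc : Nat.card S = finrank K U ^ 2} (hn : NondegOn B U) : (P.sub S U hU hS hc).Un (restr B U) :=
  ⟨h.herm.restrict hn, fun w a b => h.iso w a b, h.conj⟩

theorem Un.res (h : P.Un B) (hy : P.β u y = 1) (j : ZMod 3) :
    (P.res hy j).Un (restr B (P.Ve u j)) := h.sub ((h.uDec u).nondeg j)

theorem Un.SUV_le_of_mem [Finite K] (h : P.Un B) (h3 : 3 ≤ finrank K V)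
    (hq : ∃ a, σ a = a ∧ a ≠ 0 ∧ a ≠ 1) (hX : ∀ k ∈ SUV B, ∀ y ∈ X, k * y * k⁻¹ ∈ X)
    (ha : a ≠ 0) (hd : C6.sc V (P.χ k) * P.ρ a ∈ X) : SUV B ≤ X := by
  have := P.fd
  refine SUV_le_of_norm3 h.herm h3 hq hX hd
    (mul_mem (C6.Pauli.sc_mem_isomGroup (h.conj k)) (h.iso a)) ?_
  rintro ⟨c, hc⟩
  obtain ⟨d, e⟩ := P.exists_sc_of_smul hc
  exact ha (P.eq_zero_of_sc_ρ e)

/-- `SU(V₀)` together with the Clifford group generates a group containing `SU(V)`. -/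
theorem Un.SUV_le_of_kerX [Finite K] (h : P.Un B) (hH : P.H1 X) (h4 : finrank (ZMod 3) W = 4)
    (hy : P.β u y = 1) (hk : SUV (restr B (P.Ve u j)) ≤ P.kerX X u j) : SUV B ≤ X := by
  have := P.fd
  have hu := ne_zero_of_β hy
  have hD := h.uDec u
  have hB := h.herm
  have hn : finrank K V = 9 := P.finrank_eq (m := 2) h4
  let M : Subgroup (isomGroup B) := X.subgroupOf (isomGroup B)
  have hfix : ∀ i, ∀ k ∈ SUV (restr B (P.Ve u i)), ∃ f ∈ M, (∀ v, (k v : V) = f.1 v) ∧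
      ∀ m ≠ i, ∀ v ∈ P.Ve u m, f.1 v = v := fun i k hk' => by
    let e : P.Ve u j ≃ₗ[K] P.Ve u i :=
      { toFun := fun v => ⟨P.ρ ((i - j) • y) v, by simpa [hy] using ρ_mem_Ve v.2 ((i - j) • y)⟩
        invFun := fun v => ⟨P.ρ (-((i - j) • y)) v, by
          simpa [hy] using ρ_mem_Ve v.2 (-((i - j) • y))⟩
        map_add' := fun a b => Subtype.ext (by simp)
        map_smul' := fun c a => Subtype.ext (by simp)
        left_inv := fun v => Subtype.ext (P.ρ_neg_ρ _ v)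
        right_inv := fun v => Subtype.ext (P.ρ_ρ_neg _ v) }
    obtain ⟨k, rfl⟩ := (autCongr e).surjective k
    have hk1 := (mem_SUV.1 hk').1
    rw [mem_SUV, det_autCongr] at hk'
    obtain ⟨f, hf, e1, e2⟩ := hk (mem_SUV.2 ⟨fun a b => by
      have := hk'.1 (e a) (e b)
      simp only [autCongr_apply, LinearEquiv.symm_apply_apply] at this
      exact (h.iso _ _ _).symm.trans (this.trans (h.iso _ _ _)), hk'.2⟩)
    have e3 : ∀ v, (autCongr e k v : V) = (P.ρ ((i - j) • y) * f * P.ρ (-((i - j) • y))) v :=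
      fun v => congrArg (P.ρ _) (e1 _)
    have e4 : ∀ m ≠ i, ∀ v ∈ P.Ve u m, (P.ρ ((i - j) • y) * f * P.ρ (-((i - j) • y))) v = v :=
      fun m hm v hv => by
        rw [LinearEquiv.mul_apply, LinearEquiv.mul_apply, e2 _ (fun e => hm (by
          rw [map_neg, map_smul, hy, smul_eq_mul] at e; linear_combination e)) _
          (ρ_mem_Ve hv _), ρ_ρ_neg]
    refine ⟨⟨P.ρ ((i - j) • y) * f * P.ρ (-((i - j) • y)), fun a b => ?_⟩,
      mul_mem (mul_mem (hH.ρ _) hf) (hH.ρ _), e3, e4⟩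
    have e5 : ∀ m, ∀ v ∈ P.Ve u m, (P.ρ ((i - j) • y) * f * P.ρ (-((i - j) • y))) v ∈ P.Ve u m :=
      fun m v hv => if hm : m = i then by subst hm; exact e3 ⟨v, hv⟩ ▸ Subtype.property _ else by
        rwa [e4 m hm v hv]
    generalize P.ρ ((i - j) • y) * f * P.ρ (-((i - j) • y)) = f' at e3 e4 e5
    change B (f' a) (f' b) = B a b
    rw [← hD.proj.sum a, ← hD.proj.sum b]
    simp only [map_sum, LinearMap.sum_apply]
    refine Finset.sum_congr rfl fun m _ => Finset.sum_congr rfl fun m' _ => ?_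
    by_cases hm : m' = m
    · subst hm
      by_cases hm : m' = i
      · subst hm
        rw [← e3 ⟨_, P.pr_mem ..⟩, ← e3 ⟨_, P.pr_mem ..⟩]
        exact hk1 _ _
      · rw [e4 _ hm _ (P.pr_mem ..), e4 _ hm _ (P.pr_mem ..)]
    · rw [hD.orth _ _ hm _ (P.pr_mem ..) _ (P.pr_mem ..),
        hD.orth _ _ hm _ (e5 _ _ (P.pr_mem ..)) _ (e5 _ _ (P.pr_mem ..))]
  have hS : ∀ i, SUIn M (P.Ve u i) := fun i g hg hg' => by
    let k := rsH ((mov B (P.Ve u i)).map (isomGroup B).subtype) (P.Ve u i)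
      (by rintro _ ⟨x, hx, rfl⟩ v hv; exact mov_apply_mem hx hv) ⟨g, g, hg', rfl⟩
    have hc := hB.isCompl_orth (hD.nondeg i)
    obtain ⟨f, hf, e1, e2⟩ := hfix i k (mem_SUV.2 ⟨fun a b => g.2 a b, by
      rw [← det_eq_of_fix hc (g := g) (fun _ => rfl) fun v hv => mov_fix hB (hD.nondeg i) hg' hv]
      exact hg⟩)
    rwa [show g = f from Subtype.ext (P.ext_Ve u fun m v hv => if hm : m = i then by
      subst hm; exact e1 ⟨v, hv⟩ else by rw [e2 m hm v hv, hD.fix_of_mov (Ne.symm hm) hg' hv])]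
  obtain ⟨a, ha, ha0, haa⟩ := hB.exists_isotropic_mem (hD.nondeg 0) (by rw [finrank_Ve h4 hu]; omega)
  have h5 := (hB.tvA_of_suIn (hS 0) ha haa).apply (g := ⟨_, h.τ_mem y 1⟩) (hH.2 y 1)
  have h6 := pr_τ_ne hy (k := 1) (by decide) ha ha0
  change hB.TvA M (P.τ y 1 a) at h5
  generalize P.τ y 1 a = a' at h5 h6
  obtain ⟨z, hz, hz0, hzz, c, hc, h7⟩ := hB.exists_eich_three (hD.nondeg 0) (hS 0)
    (finrank_Ve h4 hu 0).ge h5 (P.pr_mem ..) (h6 0) (hD.sub_mem_orth 0 a')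
  obtain ⟨δ, hδ0, hδ⟩ := hB.exists_trace_zero
  have hall : ∀ l ≠ 0, ∀ x ∈ P.Ve u l, x ∈ hB.eichSub M hzz := fun l hl x hx => by
    obtain ⟨y, hy, hyy, hyw⟩ : ∃ y ∈ P.Ve u l, B y y = 0 ∧ B y (c • a') ≠ 0 := by
      by_contra! hcon
      have := hB.le_of_isotropic (hD.nondeg l) (by rw [finrank_Ve h4 hu]; omega)
        (T := LinearMap.ker (B (c • a'))) fun v hv hvv => hB.comm (hcon v hv hvv)
      exact smul_ne_zero hc (h6 l) (by
        rw [← map_smul]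
        exact hD.nondeg l _ (P.pr_mem ..) fun v hv => by rw [hD.proj_apply hv]; exact this hv)
    exact addSubgroup_eq_top_of_SUV (hB.restrict (hD.nondeg l)) (finrank_Ve h4 hu l).ge
      (A := (hB.eichSub M hzz).comap (P.Ve u l).subtype.toAddMonoidHom) (fun k hk v hv => by
        obtain ⟨f, hf, e1, e2⟩ := hfix l k hk
        have := hB.apply_mem_eichSub hf (hz' := hzz) (e2 0 hl.symm z hz) hv
        rwa [AddSubgroup.mem_comap, LinearMap.toAddMonoidHom_coe, Submodule.subtype_apply, e1])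
      (i := ⟨_, Submodule.smul_mem _ _ hy⟩)
      ((hB.tvA_of_suIn (hS l) hy hyy).smul_mem_eichSub (hD.orth l 0 hl y hy z hz) h7 δ hδ)
      (by
        have : y ≠ 0 := by rintro rfl; simp at hyw
        simpa [hδ0, this] using hyw) ⟨x, hx⟩
  have hfull : hB.Full M z := hB.full_of_forall (by omega) hzz fun w hw => ⟨0, by
    rw [zero_smul, add_zero, ← hD.proj.sum w]
    refine sum_mem fun l _ => ?_
    by_cases hl : l = 0
    · subst hl
      exact hB.mem_eichSub_of_suIn (hS 0) hz (hD.proj.mem 0 w) hzz (by rwa [hD.apply_proj hz])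
    · exact hall l hl _ (hD.proj.mem l w)⟩
  obtain ⟨f, hf, hff, hzf⟩ := hB.exists_partner_of_nondeg (hD.nondeg 0) hz hz0 hzz
  have := hB.sIsom_le_of_full_of_transv (by omega) hfull hff (by simp [hzf]) hδ0 hδ
    ((hB.tvA_of_suIn (hS 0) hf hff).mem hff δ hδ)
  rintro _ ⟨g, hg, rfl⟩
  exact this hg

/-- (α) for the unitary groups. -/
theorem Un.SUV_le [Finite K] (h : P.Un B) (hH : P.H1 X) (h4 : finrank (ZMod 3) W = 4)
    (hq : ∃ a, σ a = a ∧ a ≠ 0 ∧ a ≠ 1) (hy : P.β u y = 1)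
    (hS : SUV (restr B (P.Ve u j)) ≤ (P.rV X u j).range) : SUV B ≤ X :=
  h.SUV_le_of_kerX hH h4 hy (hH.le_kerX h4 hy hS (fun _ hY _ _ ha e =>
    (h.res hy j).SUV_le_of_mem (finrank_Ve h4 (ne_zero_of_β hy) j).ge hq hY ha e)
    fun _ ha _ hb => mem_SUV.2 ⟨mul_mem ((h.res hy j).τ_mem _ _) ((h.res hy j).τ_mem _ _),
      τ_τ_mem_SLV ha hb⟩)

end Pau

end Cfsg.Lib.Class.C3
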