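import Cfsg.Agent.Class.C3.Sp2

/-!
# Step (β): centralisers of the `ρ u` which act as Clifford groups on the eigenspaces
-/

namespace Cfsg.Lib.Class.C3

open Module C6

variable {K V W : Type*} [Field K] [AddCommGroup V] [Module K V] [AddCommGroup W]
  [Module (ZMod 3) W]

namespace Pau

variable (P : Pau K V W) {u w y a b : W} {i j k : ZMod 3} {v : V} {g : V ≃ₗ[K] V}
  {s : W ≃ₗ[ZMod 3] W} {l : W →ₗ[ZMod 3] ZMod 3} {X : Subgroup (V ≃ₗ[K] V)}

/-- the action of the normaliser on `W` -/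
noncomputable def act : P.N →* (W ≃ₗ[ZMod 3] W) where
  toFun g := (exists_ind g.2).choose
  map_one' := (exists_ind (1 : P.N).2).choose_spec.choose_spec.unique ind_one
  map_mul' g h := (exists_ind (g * h).2).choose_spec.choose_spec.unique
    ((exists_ind g.2).choose_spec.choose_spec.mul (exists_ind h.2).choose_spec.choose_spec)

theorem act_spec (g : P.N) : ∃ l, P.Ind g (P.act g) l := (exists_ind g.2).choose_spec

/-- the centraliser of `ρ u` in `X` -/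
def Cu (X : Subgroup (V ≃ₗ[K] V)) (u : W) : Subgroup (V ≃ₗ[K] V) :=
  X ⊓ Subgroup.centralizer {P.ρ u}

theorem mem_Cu : g ∈ P.Cu X u ↔ g ∈ X ∧ Commute g (P.ρ u) :=
  and_congr_right fun _ => Subgroup.mem_centralizer_singleton_iff

/-- the action of the centraliser of `ρ u` on an eigenspace -/
def rV (X : Subgroup (V ≃ₗ[K] V)) (u : W) (j : ZMod 3) : P.Cu X u →* (P.Ve u j ≃ₗ[K] P.Ve u j) :=
  rsH _ _ fun _ hg _ hv => map_mem_Ve (P.mem_Cu.1 hg).2 hv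

/-- centralisers act on eigenspaces as subgroups of the Clifford group -/
def Loc (X : Subgroup (V ≃ₗ[K] V)) : Prop :=
  ∀ u y (hy : P.β u y = 1) j, (P.rV X u j).range ≤ (P.res hy j).N

/-- centralisers normalise `R` -/
def CentN (X : Subgroup (V ≃ₗ[K] V)) : Prop := ∀ u ≠ 0, ∀ g ∈ X, Commute g (P.ρ u) → g ∈ P.N

/-- the map that is `ρ w` on the fixed space of `ρ u` and trivial on the other eigenspaces lies in `X` -/
def Ctl (X : Subgroup (V ≃ₗ[K] V)) (u w : W) : Prop :=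
  ∃ g ∈ X, (∀ v ∈ P.Ve u 0, g v = P.ρ w v) ∧ ∀ i ≠ 0, ∀ v ∈ P.Ve u i, g v = v

/-- the special configuration -/
def Spec (X : Subgroup (V ≃ₗ[K] V)) (u : W) : Prop := ∀ w, P.β u w = 0 → P.Ctl X u w

variable {P}

theorem Ind.act_eq (h : P.Ind g s l) (hg : g ∈ P.N) : P.act ⟨g, hg⟩ = s :=
  (P.act_spec ⟨g, hg⟩).choose_spec.unique h

theorem ind_iff : P.Ind g s l ↔ ∀ w v, g (P.ρ w v) = (P.χ (l w) : K) • P.ρ (s w) (g v) :=
  ⟨fun h => h.apply, fun h w => mul_inv_eq_iff_eq_mul.2 (LinearEquiv.ext (h w))⟩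

theorem res_ind_iff {hy : P.β u y = 1} {x : P.Cu X u} {s : P.W1 u y ≃ₗ[ZMod 3] P.W1 u y}
    {l : P.W1 u y →ₗ[ZMod 3] ZMod 3} : (P.res hy j).Ind (P.rV X u j x) s l ↔
      ∀ w : P.W1 u y, ∀ v ∈ P.Ve u j, x.1 (P.ρ w v) = (P.χ (l w) : K) • P.ρ (s w) (x.1 v) :=
  ind_iff.trans (forall_congr' fun _ => ⟨fun h v hv => congrArg Subtype.val (h ⟨v, hv⟩),
    fun h v => Subtype.ext (h v v.2)⟩)

theorem H1_N : P.H1 P.N := ⟨P.R_le_N, P.τ_mem_N⟩

theorem H1.inf (h : P.H1 X) : P.H1 (X ⊓ P.N) := ⟨le_inf h.1 P.R_le_N, fun a k => ⟨h.2 a k, P.τ_mem_N a k⟩⟩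

theorem H1.res (h : P.H1 X) (hy : P.β u y = 1) (j : ZMod 3) :
    (P.res hy j).H1 (P.rV X u j).range :=
  sub_H1 _ (fun c => P.mem_Cu.2 ⟨h.sc c, (commute_sc _ _).symm⟩)
    (fun w hw => P.mem_Cu.2 ⟨h.ρ w, (P.commute_ρ hw.1).symm⟩)
    fun w hw k => P.mem_Cu.2 ⟨h.2 w k, (commute_τ (P.commute_ρ hw.1) k).symm⟩

theorem H1.mem_of_dg (h : P.H1 X) {c : Kˣ} {a : ZMod 3 → ZMod 3}
    (e : ∀ i, ∀ v ∈ P.Ve u i, g v = ((c : K) * P.χ (a i)) • v) : g ∈ X := by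
  have : g = C6.sc V (c * P.χ (a 0)) * P.ρ ((a (-1) - a 1) • u) * P.τ u (-a 0 - a 1 - a (-1)) :=
    P.ext_Ve u fun i v hv => by
      simp only [e i v hv, LinearEquiv.mul_apply, τ_apply hv, map_smul, ρ_smul_apply hv, sc_apply,
        smul_smul, Units.val_mul, mul_left_comm _ (c : K), mul_assoc, χv_mul]
      congr 4
      rcases z3_cases i with rfl | rfl | rfl
      · ring
      · linear_combination a 1 * z3_three
      · linear_combination a (-1) * z3_three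
  rw [this]
  exact mul_mem (mul_mem (h.sc _) (h.ρ _)) (h.2 _ _)

theorem ext_Ve₂ (h : P.β u a = 0) {f f' : V →ₗ[K] V}
    (e : ∀ j, ∀ v ∈ P.Ve u i, v ∈ P.Ve a j → f v = f' v) (hv : v ∈ P.Ve u i) : f v = f' v := by
  rw [← (P.isDecProj a).sum v, map_sum, map_sum]
  exact Finset.sum_congr rfl fun j _ =>
    e j _ (pr_mem_of_inv (fun _ hx => ρ_mem_Ve' hx h) hv j) (P.pr_mem ..)

theorem τ_τ_apply (h : P.β u a = 0) (hv : v ∈ P.Ve u i) :
    P.τ a 1 (P.τ (a + u) (-1) v) = (P.χ (-(i * i)) : K) • P.ρ (i • a) v := by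
  refine ext_Ve₂ h (f := (P.τ a 1 * P.τ (a + u) (-1) : V ≃ₗ[K] V))
    (f' := (P.χ (-(i * i)) : K) • (P.ρ (i • a) : V →ₗ[K] V)) (fun j x h1 h2 => ?_) hv
  have h3 : x ∈ P.Ve (a + u) (i + j) := by
    rw [mem_Ve, ← P.mul_of_β (P.β_comm0 h), LinearEquiv.mul_apply, P.mem_Ve.1 h1, map_smul,
      P.mem_Ve.1 h2, smul_smul, χv_mul]
  simp only [LinearEquiv.coe_coe, LinearEquiv.mul_apply, τ_apply h3, map_smul, τ_apply h2,
    LinearMap.smul_apply, ρ_smul_apply h2, smul_smul, χv_mul]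
  congr 3
  linear_combination (-i * j) * z3_three

theorem H1.exists_aff (h : P.H1 X) (e : W) {d : W} (hd : P.β u d = 0) :
    ∃ n ∈ X, ∀ i, ∃ c : Kˣ, ∀ v ∈ P.Ve u i, n v = (c : K) • P.ρ (e + i • d) v :=
  ⟨P.ρ e * (P.τ d 1 * P.τ (d + u) (-1)), mul_mem (h.ρ e) (mul_mem (h.2 _ _) (h.2 _ _)), fun i =>
    ⟨P.χ (-(i * i)) * P.χ (-P.β e (i • d)), fun v hv => by
      simp only [LinearEquiv.mul_apply, τ_τ_apply hd hv, map_smul, P.ρ_ρ, smul_smul,
        Units.val_mul]⟩⟩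

theorem Ctl.add (h : P.H1 X) (h1 : P.Ctl X u a) (h2 : P.Ctl X u b) (hb : P.β u b = 0) :
    P.Ctl X u (a + b) := by
  obtain ⟨g, hg, e, f⟩ := h1
  obtain ⟨g', hg', e', f'⟩ := h2
  let d := P.blk u (fun i => C6.sc V (P.χ (if i = 0 then P.β a b else 0)))
    fun _ => (commute_sc _ _).symm
  have hd : ∀ i, ∀ v ∈ P.Ve u i, d v = (P.χ (if i = 0 then P.β a b else 0) : K) • v :=
    fun i v hv => blk_apply _ hv
  refine ⟨g * g' * d, mul_mem (mul_mem hg hg') (h.mem_of_dg (c := 1) fun i v hv => by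
    rw [hd i v hv, Units.val_one, one_mul]), fun v hv => ?_, fun i hi v hv => ?_⟩
  · simp [LinearEquiv.mul_apply, hd 0 v hv, e' v hv, e _ (ρ_mem_Ve' hv hb), P.ρ_ρ, smul_smul, χv_mul]
  · simp [LinearEquiv.mul_apply, hd i v hv, hi, f' i hi v hv, f i hi v hv]

theorem Ctl.of_smul (h : P.H1 X) (hg : g ∈ X) {m : ZMod 3}
    (e : ∀ v ∈ P.Ve u 0, g v = (P.χ m : K) • P.ρ a v) (f : ∀ i ≠ 0, ∀ v ∈ P.Ve u i, g v = v) :
    P.Ctl X u a := by
  let d := P.blk u (fun i => C6.sc V (P.χ (if i = 0 then -m else 0)))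
    fun _ => (commute_sc _ _).symm
  have hd : ∀ i, ∀ v ∈ P.Ve u i, d v = (P.χ (if i = 0 then -m else 0) : K) • v :=
    fun i v hv => blk_apply _ hv
  refine ⟨g * d, mul_mem hg (h.mem_of_dg (c := 1) fun i v hv => by
    rw [hd i v hv, Units.val_one, one_mul]), fun v hv => ?_, fun i hi v hv => ?_⟩
  · simp [LinearEquiv.mul_apply, hd 0 v hv, e v hv, smul_smul, χv_mul]
  · simp [LinearEquiv.mul_apply, hd i v hv, hi, f i hi v hv]

theorem Spec.conj (h : P.H1 X) (hu : u ≠ 0) (hS : P.Spec X u) (hw : w ≠ 0) : P.Spec X w := by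
  obtain ⟨s, hs, rfl⟩ := P.exists_TV_apply hu hw
  obtain ⟨n, hn, e⟩ := h.exists_ind hs
  intro a ha
  obtain ⟨a, rfl⟩ := s.surjective a
  obtain ⟨g, hg, e1, e2⟩ := hS a (by rwa [e.β] at ha)
  have : ∀ i, ∀ v ∈ P.Ve (s u) i, n⁻¹ v ∈ P.Ve u i := fun i v hv => by
    simpa using inv_mem_Ve_of_conj (e u) hv
  refine ⟨n * g * n⁻¹, mul_mem (mul_mem hn hg) (inv_mem hn), fun v hv => ?_, fun i hi v hv => ?_⟩
  · rw [LinearEquiv.mul_apply, LinearEquiv.mul_apply, e1 _ (this 0 v hv), e.apply, apply_inv_apply]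
    simp
  · rw [LinearEquiv.mul_apply, LinearEquiv.mul_apply, e2 i hi _ (this i v hv), apply_inv_apply]

theorem spec_of (h : P.H1 X) (hy : P.β u y = 1) (hg : g ∈ X) (ha : a ∈ P.W1 u y) (ha0 : a ≠ 0)
    {c : ZMod 3 → Kˣ} (e : ∀ v ∈ P.Ve u 0, g v = (c 0 : K) • P.ρ a v)
    (f : ∀ i ≠ 0, ∀ v ∈ P.Ve u i, g v = (c i : K) • v) : P.Spec X u := by
  have hc : Commute g (P.ρ u) := commute_of_Ve fun i v hv => by
    by_cases hi : i = 0
    · subst hi; rw [e v hv]; exact Submodule.smul_mem _ _ (ρ_mem_Ve' hv ha.1)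
    · rw [f i hi v hv]; exact Submodule.smul_mem _ _ hv
  have key : ∀ b, P.β u b = 0 → P.β a b ≠ 0 → P.Ctl X u b := fun b hb hab => by
    have ht := (commute_τ (P.commute_ρ hb) (-P.β a b)).symm
    have h1 := conj_τ (P.conj_ρ a b) (-P.β a b)
    rw [neg_mul, neg_neg, z3_mul_self hab, one_smul] at h1
    refine Ctl.of_smul h (g := (P.τ b (-P.β a b))⁻¹ * (g * P.τ b (-P.β a b) * g⁻¹))
      (mul_mem (inv_mem (h.2 _ _)) (mul_mem (mul_mem hg (h.2 _ _)) (inv_mem hg)))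
      (m := -1 * P.β a b) (fun v hv => ?_) fun i hi v hv => ?_
    · obtain ⟨v, rfl⟩ := g.surjective v
      have hv' : v ∈ P.Ve u 0 := by simpa [inv_apply_apply] using map_mem_Ve hc.inv_left hv
      have := congrArg (fun x : V ≃ₗ[K] V => x (P.ρ a v)) h1
      simp only [LinearEquiv.mul_apply, inv_apply_apply, sc_apply] at this
      simp only [LinearEquiv.mul_apply, inv_apply_apply]
      simp only [e _ (map_mem_Ve ht hv'), this, e v hv', map_smul, inv_apply_apply]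
      rw [smul_comm]
    · obtain ⟨v, rfl⟩ := g.surjective v
      have hv' : v ∈ P.Ve u i := by simpa [inv_apply_apply] using map_mem_Ve hc.inv_left hv
      simp only [LinearEquiv.mul_apply, inv_apply_apply]
      simp only [f i hi _ (map_mem_Ve ht hv'), f i hi v hv', map_smul, inv_apply_apply]
  intro w hw
  by_cases hb : P.β a w = 0
  · obtain ⟨b, hb', hab⟩ : ∃ b ∈ P.W1 u y, P.β a b ≠ 0 := by
      by_contra! hc
      exact ha0 (P.W1_nondeg hy a ha hc)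
    have := Ctl.add h (key b hb'.1 hab) (key (w - b) (by simp [hw, (P.mem_W1.1 hb').1])
      (by simpa [hb] using hab)) (by simp [hw, (P.mem_W1.1 hb').1])
    rwa [add_sub_cancel] at this
  · exact key w hw hb

variable (h4 : finrank (ZMod 3) W = 4)
include h4

theorem finrank_W1_two (hy : P.β u y = 1) : finrank (ZMod 3) (P.W1 u y) = 2 := by
  have := P.finrank_W1 hy
  omega

theorem exists_W1 (hy : P.β u y = 1) : ∃ w ∈ P.W1 u y, ∃ x ∈ P.W1 u y, P.β w x = 1 := by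
  have := nontriv2 (finrank_W1_two h4 hy)
  obtain ⟨w, x, h⟩ := (P.res hy 0).exists_hyp
  exact ⟨w, w.2, x, x.2, h⟩

theorem Loc.mem_N_of_smul (hL : P.Loc X) (hu : u ≠ 0) (hg : g ∈ X) {c : ZMod 3 → Kˣ}
    (e : ∀ i, ∀ v ∈ P.Ve u i, g v = (c i : K) • v) : g ∈ P.N := by
  obtain ⟨y, hy⟩ := P.exists_β_eq_one hu
  obtain ⟨w, hw, x, hx, hwx⟩ := exists_W1 h4 hy
  have hc : ∀ a, P.β u a = 0 → Commute g (P.ρ a) := fun a ha => P.ext_Ve u fun i v hv => by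
    simp [LinearEquiv.mul_apply, e i v hv, e i _ (ρ_mem_Ve' hv ha)]
  let u' : P.W1 w x := ⟨u, P.β_comm0 hw.1, P.β_comm0 hx.1⟩
  let y' : P.W1 w x := ⟨y, P.β_comm0 hw.2, P.β_comm0 hx.2⟩
  have key : ∀ i, c (i + 1) ^ 3 = c i ^ 3 := fun i => by
    obtain ⟨v, hv, hv0⟩ := exists_mem_Ve (P := P.res hwx 0) (u := u')
      (fun h => hu (congrArg Subtype.val h)) i
    have hv' := mem_sub_Ve.1 hv
    exact Units.ext (by
      simpa using cube_eq (finrank_W1_two h4 hwx) (P := P.res hwx 0) (u := u') (y := y') hy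
        (hL w x hwx 0 ⟨⟨g, P.mem_Cu.2 ⟨hg, hc w hw.1⟩⟩, rfl⟩)
        (LinearEquiv.ext fun z => Subtype.ext (commute_apply (hc u (P.alt u)) z)) hv hv0
        (Subtype.ext (e i _ hv')) (Subtype.ext (e (i + 1) _ (hy ▸ ρ_mem_Ve hv' y))))
  have : ∀ i, ∃ a, c i * (c 0)⁻¹ = P.χ a := fun i => P.exists_χ (by
    rw [mul_pow, inv_pow, mul_inv_eq_one]
    rcases z3_cases i with rfl | rfl | rfl
    · rfl
    · simpa using key 0
    · simpa using (key (-1)).symm)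
  choose a ha using this
  exact H1_N.mem_of_dg (c := c 0) (a := a) fun i v hv => by
    rw [e i v hv, ← ha, ← Units.val_mul, mul_comm, inv_mul_cancel_right]

theorem Loc.mem_N_or_spec (hL : P.Loc X) (h : P.H1 X) (hy : P.β u y = 1) (hg : g ∈ X)
    {c : ZMod 3 → Kˣ} {w : ZMod 3 → W} (hw : ∀ i, w i ∈ P.W1 u y)
    (e : ∀ i, ∀ v ∈ P.Ve u i, g v = (c i : K) • P.ρ (w i) v) : g ∈ P.N ∨ P.Spec X u := by
  obtain ⟨n, hn, e'⟩ := h.inf.exists_aff (u := u) (w 1 + w (-1)) (d := w 1 - w (-1))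
    (by rw [map_sub, (P.mem_W1.1 (hw _)).1, (P.mem_W1.1 (hw _)).1, sub_zero])
  choose d hd using e'
  have h1 : ∀ i, ∀ v ∈ P.Ve u i, (n * g) v = (c i * d i * P.χ (-P.β (w 1 + w (-1) +
      i • (w 1 - w (-1))) (w i)) : Kˣ).1 • P.ρ (w 1 + w (-1) + i • (w 1 - w (-1)) + w i) v :=
    fun i v hv => by
      rw [LinearEquiv.mul_apply, e i v hv, map_smul, hd i _ (ρ_mem_Ve' hv (hw i).1), P.ρ_ρ,
        smul_smul, smul_smul, Units.val_mul, Units.val_mul]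
  have h2 : ∀ i ≠ 0, w 1 + w (-1) + i • (w 1 - w (-1)) + w i = 0 := fun i hi => by
    rcases z3_cases i with rfl | rfl | rfl
    · exact absurd rfl hi
    · linear_combination (norm := module) add_self3 (w 1)
    · linear_combination (norm := module) add_self3 (w (-1))
  by_cases h3 : w 1 + w (-1) + (0 : ZMod 3) • (w 1 - w (-1)) + w 0 = 0
  · refine .inl ((P.N.mul_mem_cancel_left hn.2).1 (hL.mem_N_of_smul h4 (ne_zero_of_β hy)
      (mul_mem hn.1 hg) (c := fun i => c i * d i * P.χ (-P.β (w 1 + w (-1) +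
        i • (w 1 - w (-1))) (w i))) fun i v hv => ?_))
    rw [h1 i v hv, show w 1 + w (-1) + i • (w 1 - w (-1)) + w i = 0 from
      if hi : i = 0 then hi ▸ h3 else h2 i hi, P.ρ_zero_apply]
  · exact .inr (spec_of h hy (mul_mem hn.1 hg) (add_mem (add_mem (add_mem (hw _) (hw _))
      (Submodule.smul_mem _ _ (sub_mem (hw _) (hw _)))) (hw _)) h3 (h1 0) fun i hi v hv => by
        rw [h1 i v hv, h2 i hi, P.ρ_zero_apply])

theorem H1.exists_diag (h : P.H1 X) (hy : P.β u y = 1) {s : P.W1 u y ≃ₗ[ZMod 3] P.W1 u y}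
    (hs : s ∈ (P.res hy 0).SpG) :
    ∃ x : P.Cu X u, x.1 ∈ P.N ∧ ∀ i, (P.res hy i).Ind (P.rV X u i x) s 0 := by
  replace hs := SpG_le_TV (finrank_W1_two h4 hy) hs
  induction hs using Subgroup.closure_induction with
  | mem s hs =>
    obtain ⟨a, k, rfl⟩ := hs
    refine ⟨⟨_, P.mem_Cu.2 ⟨h.2 a k, (commute_τ (P.commute_ρ a.2.1) k).symm⟩⟩, P.τ_mem_N _ _,
      fun i => res_ind_iff.2 fun w v _ => (P.ind_τ a k).apply w v⟩
  | one => exact ⟨1, one_mem _, fun i => by simpa using ind_one⟩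
  | mul s t _ _ hs ht =>
    obtain ⟨n, hn, e⟩ := hs
    obtain ⟨m, hm, e'⟩ := ht
    exact ⟨n * m, mul_mem hn hm, fun i => by
      rw [map_mul]; exact ((e i).mul (e' i)).congr (fun _ => rfl) (by simp)⟩
  | inv s _ hs =>
    obtain ⟨n, hn, e⟩ := hs
    exact ⟨n⁻¹, inv_mem hn, fun i => by
      rw [map_inv]; exact (e i).inv.congr (fun _ => rfl) (by simp)⟩

/-- Step (β). -/
theorem Loc.centN_or_spec (hL : P.Loc X) (h : P.H1 X) : P.CentN X ∨ ∃ u ≠ 0, P.Spec X u := by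
  refine or_iff_not_imp_right.2 fun hS u hu g hg hc => ?_
  push Not at hS
  replace hS := hS u hu
  obtain ⟨y, hy⟩ := P.exists_β_eq_one hu
  let f : ZMod 3 → P.Cu X u →* (P.W1 u y ≃ₗ[ZMod 3] P.W1 u y) := fun i =>
    (P.res hy i).act.comp ((P.rV X u i).codRestrict _ fun x => hL u y hy i ⟨x, rfl⟩)
  have hf : ∀ i x, ∃ l, (P.res hy i).Ind (P.rV X u i x) (f i x) l := fun i x =>
    (P.res hy i).act_spec ⟨_, hL u y hy i ⟨x, rfl⟩⟩
  have hR : ∀ i x, f i x = 1 → ∃ (c : Kˣ) (w : P.W1 u y), ∀ v ∈ P.Ve u i,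
      x.1 v = (c : K) • P.ρ w v := fun i x e => by
    obtain ⟨l, hl⟩ := hf i x
    obtain ⟨c, w, e'⟩ := (e ▸ hl).mem_R
    exact ⟨c, w, fun v hv => congrArg (fun k : P.Ve u i ≃ₗ[K] P.Ve u i => (k ⟨v, hv⟩ : V)) e'⟩
  rcases gamma (finrank_W1_two h4 hy) (P := P.res hy 0) f (fun i x => (hf i x).choose_spec.β)
    (fun s hs => by
      obtain ⟨x, -, e⟩ := h.exists_diag h4 hy hs
      exact ⟨x, fun i => (hf i x).choose_spec.unique (e i)⟩)
    (fun x m => by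
      have hx := P.mem_Cu.1 x.2
      refine ⟨⟨P.ρ (-(m • y)) * x * P.ρ (m • y), P.mem_Cu.2 ⟨mul_mem (mul_mem (h.ρ _) hx.1) (h.ρ _),
        commute_of_Ve fun i v hv => ?_⟩⟩, fun i => ?_⟩
      · simpa [hy] using ρ_mem_Ve (map_mem_Ve hx.2 (ρ_mem_Ve hv (m • y))) (-(m • y))
      · obtain ⟨l, hl⟩ := hf (i + m) x
        refine (hf i _).choose_spec.unique (l' := l) (res_ind_iff.2 fun w v hv => ?_)
        have h1 : ∀ (w : P.W1 u y) (m : ZMod 3) v, P.ρ (m • y) (P.ρ w v) = P.ρ w (P.ρ (m • y) v) :=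
          fun w m => commute_apply (P.commute_ρ (by simp [(P.mem_W1.1 w.2).2]))
        simp only [LinearEquiv.mul_apply, h1, ← neg_smul]
        rw [res_ind_iff.1 hl w _ (by simpa [hy] using ρ_mem_Ve hv (m • y)), map_smul, h1])
    with h1 | ⟨x, h0, h1⟩
  · let x : P.Cu X u := ⟨g, P.mem_Cu.2 ⟨hg, hc⟩⟩
    obtain ⟨d, hd, e⟩ := h.exists_diag h4 hy (s := f 0 x) (hf 0 x).choose_spec.β
    choose c w hw using fun i => hR i (d⁻¹ * x) (by
      rw [map_mul, map_inv, (hf i d).choose_spec.unique (e i), h1 x 0 i, inv_mul_cancel])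
    exact (mul_mem_cancel_left (inv_mem hd)).1 ((hL.mem_N_or_spec h4 h hy (d⁻¹ * x).2.1
      (fun i => (w i).2) hw).resolve_right hS)
  obtain ⟨w, hw, _, -, hw0⟩ := exists_W1 h4 hy
  choose l hl using fun i => hf i x
  have hx := P.mem_Cu.1 x.2
  have e : ∀ i, ∀ v ∈ P.Ve u i, (P.ρ (-w) * (x.1 * P.ρ w * x.1⁻¹)) v =
      (P.χ (l i ⟨w, hw⟩) : K) • P.ρ (-w) (P.ρ (f i x ⟨w, hw⟩) v) := fun i v hv => by
    simp only [LinearEquiv.mul_apply]
    rw [res_ind_iff.1 (hl i) ⟨w, hw⟩ _ (map_mem_Ve hx.2.inv_left hv), apply_inv_apply, map_smul]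
  refine absurd (spec_of h hy (mul_mem (h.ρ (-w)) (mul_mem (mul_mem hx.1 (h.ρ w)) (inv_mem hx.1)))
    hw (ne_zero_of_β hw0) (c := fun i => P.χ (l i ⟨w, hw⟩)) (fun v hv => ?_) fun i hi v hv => ?_) hS
  · have := P.ρ_mul_self (-w)
    rw [neg_neg] at this
    rw [e 0 v hv, h0, ← this]; rfl
  · rw [e i v hv, h1 i hi]; simp

end Pau

end Cfsg.Lib.Class.C3
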