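import Cfsg.Agent.Class.C3.Pauli
import Cfsg.Agent.Class.Decomp

/-!
# Eigenspaces, block maps, the elements `τ a k` and subsystems of a Pauli system over `ZMod 3`
-/

namespace Cfsg.Lib.Class.C3

open Module C6

variable {K V W : Type*} [Field K] [AddCommGroup V] [Module K V] [AddCommGroup W]
  [Module (ZMod 3) W]

theorem sum_z3 {M : Type*} [AddCommMonoid M] (f : ZMod 3 → M) : ∑ j, f j = f 0 + f 1 + f (-1) :=
  Fin.sum_univ_three f

/-- restriction of a group of automorphisms to an invariant subspace -/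
def rsH (C : Subgroup (V ≃ₗ[K] V)) (U : Submodule K V) (h : ∀ g ∈ C, ∀ v ∈ U, g v ∈ U) :
    C →* (U ≃ₗ[K] U) where
  toFun g :=
    { toFun := fun v => ⟨g.1 v, h _ g.2 _ v.2⟩
      invFun := fun v => ⟨g.1⁻¹ v, h _ (inv_mem g.2) _ v.2⟩
      map_add' := fun x y => Subtype.ext (by simp)
      map_smul' := fun c x => Subtype.ext (by simp)
      left_inv := fun v => Subtype.ext (inv_apply_apply g.1 v)
      right_inv := fun v => Subtype.ext (apply_inv_apply g.1 v) }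
  map_one' := rfl
  map_mul' _ _ := rfl

@[simp] theorem rsH_apply {C : Subgroup (V ≃ₗ[K] V)} {U : Submodule K V}
    (h : ∀ g ∈ C, ∀ v ∈ U, g v ∈ U) (g : C) (v : U) : (rsH C U h g v : V) = g.1 v := rfl

namespace Pau

variable (P : Pau K V W)

/-- the eigenspace of `ρ u` for the eigenvalue `ω ^ j` -/
def Ve (u : W) (j : ZMod 3) : Submodule K V where
  carrier := {v | P.ρ u v = (P.χ j : K) • v}
  add_mem' {a b} ha hb := by
    simp only [Set.mem_ofPred_eq] at ha hb ⊢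
    rw [map_add, ha, hb, smul_add]
  zero_mem' := by simp
  smul_mem' c v hv := by
    simp only [Set.mem_ofPred_eq] at hv ⊢
    rw [map_smul, hv, smul_comm]

theorem mem_Ve {u : W} {j : ZMod 3} {v : V} : v ∈ P.Ve u j ↔ P.ρ u v = (P.χ j : K) • v := Iff.rfl

variable {P} {u w y a b : W} {i j k : ZMod 3} {v : V} {g h : V ≃ₗ[K] V}

theorem ρ_neg_apply (hv : v ∈ P.Ve u j) : P.ρ (-u) v = (P.χ (-j) : K) • v := by
  have := congrArg (fun x => (P.χ (-j) : K) • P.ρ (-u) x) (P.mem_Ve.1 hv)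
  simp only [ρ_neg_ρ, map_smul, smul_smul, χv_mul, neg_add_cancel, χ_zero, Units.val_one,
    one_smul] at this
  exact this.symm

theorem ρ_smul_apply (hv : v ∈ P.Ve u j) (m : ZMod 3) : P.ρ (m • u) v = (P.χ (m * j) : K) • v := by
  rcases z3_cases m with rfl | rfl | rfl
  · simp [P.zero]
  · simpa using P.mem_Ve.1 hv
  · simpa using ρ_neg_apply hv

theorem mem_Ve_neg (hv : v ∈ P.Ve u j) : v ∈ P.Ve (-u) (-j) := ρ_neg_apply hv

theorem map_mem_Ve_of_conj (e : g * P.ρ u * g⁻¹ = sc V (P.χ k) * P.ρ w) (hv : v ∈ P.Ve u j) :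
    g v ∈ P.Ve w (j - k) := by
  have := congrArg (fun x : V ≃ₗ[K] V => (P.χ (-k) : K) • x (g v)) e
  simp only [LinearEquiv.mul_apply, inv_apply_apply, sc_apply, P.mem_Ve.1 hv, map_smul, smul_smul,
    χv_mul, neg_add_cancel, χ_zero, Units.val_one, one_smul] at this
  rw [mem_Ve, ← this, neg_add_eq_sub]

theorem inv_mem_Ve_of_conj (e : g * P.ρ u * g⁻¹ = sc V (P.χ k) * P.ρ w) (hv : v ∈ P.Ve w j) :
    g⁻¹ v ∈ P.Ve u (j + k) := by
  have := map_mem_Ve_of_conj (k := -k) (by rw [χ_neg]; exact P.conj_symm e) hv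
  rwa [sub_neg_eq_add] at this

theorem ρ_mem_Ve (hv : v ∈ P.Ve u j) (w : W) : P.ρ w v ∈ P.Ve u (j + P.β u w) := by
  have := map_mem_Ve_of_conj (P.conj_ρ w u) hv
  rwa [P.β_swap w, sub_neg_eq_add] at this

theorem ρ_mem_Ve' (hv : v ∈ P.Ve u j) (h : P.β u w = 0) : P.ρ w v ∈ P.Ve u j := by
  have := ρ_mem_Ve hv w
  rwa [h, add_zero] at this

theorem map_mem_Ve (hg : Commute g (P.ρ u)) (hv : v ∈ P.Ve u j) : g v ∈ P.Ve u j := by
  rw [mem_Ve] at hv ⊢
  rw [← commute_apply hg, hv, map_smul]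

variable (P)

/-- the projection onto an eigenspace of `ρ u` -/
def pr (u : W) (j : ZMod 3) : V →ₗ[K] V :=
  (3 : K)⁻¹ • (LinearMap.id + (P.χ (-j) : K) • (P.ρ u : V →ₗ[K] V) +
    (P.χ j : K) • (P.ρ (-u) : V →ₗ[K] V))

theorem pr_apply (u : W) (j : ZMod 3) (v : V) :
    P.pr u j v = (3 : K)⁻¹ • (v + (P.χ (-j) : K) • P.ρ u v + (P.χ j : K) • P.ρ (-u) v) := rfl

theorem isDecProj (u : W) : IsDecProj (P.Ve u) (P.pr u) where
  mem j v := by
    refine Submodule.smul_mem _ _ ?_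
    have h1 : P.ρ u (P.ρ u v) = P.ρ (-u) v := by rw [← LinearEquiv.mul_apply, ρ_mul_self]
    have h2 : j + j = -j := add_self3 j
    simp only [mem_Ve, LinearMap.add_apply, LinearMap.id_apply, LinearMap.smul_apply,
      LinearEquiv.coe_coe, map_add, map_smul, h1, ρ_ρ_neg, smul_add, smul_smul, χv_mul,
      add_neg_cancel, χ_zero, Units.val_one, one_smul, h2]
    abel
  self j v hv := by
    have := P.three
    rw [pr_apply, P.mem_Ve.1 hv, ρ_neg_apply hv, smul_smul, smul_smul, χv_mul, χv_mul]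
    simp only [neg_add_cancel, add_neg_cancel, χ_zero, Units.val_one]
    match_scalars
    field_simp
    ring
  ne j i hji v hv := by
    have := P.χv_sum (a := -j + i) (by rwa [neg_add_eq_sub, sub_ne_zero, ne_comm])
    rw [pr_apply, P.mem_Ve.1 hv, ρ_neg_apply hv, smul_smul, smul_smul, χv_mul, χv_mul,
      show j + -i = -(-j + i) by ring]
    match_scalars
    linear_combination (3 : K)⁻¹ * this
  sum v := by
    have := P.three
    have h := P.χv_sum (a := 1) (by decide)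
    simp only [sum_z3, pr_apply, neg_zero, neg_neg, χ_zero, Units.val_one]
    match_scalars
    · field_simp; ring
    · linear_combination (3 : K)⁻¹ * h
    · linear_combination (3 : K)⁻¹ * h

theorem pr_mem (u : W) (j : ZMod 3) (v : V) : P.pr u j v ∈ P.Ve u j := (P.isDecProj u).mem j v

theorem sum_pr (u : W) (v : V) : P.pr u 0 v + P.pr u 1 v + P.pr u (-1) v = v := by
  rw [← sum_z3 fun j => P.pr u j v, (P.isDecProj u).sum]

theorem ext_Ve (u : W) (e : ∀ j, ∀ v ∈ P.Ve u j, g v = h v) : g = h :=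
  LinearEquiv.toLinearMap_injective ((P.isDecProj u).ext e)

variable {P}

theorem eq_zero_of_mem_Ve (hij : i ≠ j) (hi : v ∈ P.Ve u i) (hj : v ∈ P.Ve u j) : v = 0 :=
  (P.isDecProj u).eq_zero_of_mem hij hi hj

theorem commute_of_Ve (e : ∀ j, ∀ v ∈ P.Ve u j, g v ∈ P.Ve u j) : Commute g (P.ρ u) :=
  P.ext_Ve u fun j v hv => by
    rw [LinearEquiv.mul_apply, LinearEquiv.mul_apply, P.mem_Ve.1 hv, P.mem_Ve.1 (e j v hv), map_smul]

theorem pr_mem_of_inv {U : Submodule K V} (hU : ∀ v ∈ U, P.ρ u v ∈ U) (hv : v ∈ U) (j : ZMod 3) :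
    P.pr u j v ∈ U := by
  refine U.smul_mem _ (add_mem (add_mem hv (U.smul_mem _ (hU v hv))) (U.smul_mem _ ?_))
  rw [← ρ_mul_self]
  exact hU _ (hU v hv)

theorem exists_mem_Ve (hu : u ≠ 0) (j : ZMod 3) : ∃ v ∈ P.Ve u j, v ≠ 0 := by
  have := P.nontriv
  obtain ⟨v, hv⟩ := exists_ne (0 : V)
  obtain ⟨i, hi⟩ : ∃ i, P.pr u i v ≠ 0 := by
    by_contra! h
    exact hv (by rw [← P.sum_pr u v, h, h, h, add_zero, add_zero])
  obtain ⟨y, hy⟩ := P.exists_β_eq_one hu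
  refine ⟨P.ρ ((j - i) • y) (P.pr u i v), ?_, by simpa using hi⟩
  have := ρ_mem_Ve (P.pr_mem u i v) ((j - i) • y)
  rwa [map_smul, hy, smul_eq_mul, mul_one, add_sub_cancel] at this

variable (P)

/-- the map acting as `g j` on the `j`-th eigenspace of `ρ u` -/
noncomputable def blk (u : W) (g : ZMod 3 → V ≃ₗ[K] V) (hg : ∀ j, Commute (g j) (P.ρ u)) :
    V ≃ₗ[K] V :=
  ((P.isDecProj u).exists_glue_equiv 1 fun j =>
    rsH (Subgroup.centralizer {P.ρ u}) (P.Ve u j)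
      (fun _ hx _ hv => map_mem_Ve (Subgroup.mem_centralizer_singleton_iff.1 hx) hv)
      ⟨g j, Subgroup.mem_centralizer_singleton_iff.2 (hg j)⟩).choose

variable {P} in
theorem blk_apply {g : ZMod 3 → V ≃ₗ[K] V} (hg : ∀ j, Commute (g j) (P.ρ u)) (hv : v ∈ P.Ve u j) :
    P.blk u g hg v = g j v :=
  ((P.isDecProj u).exists_glue_equiv 1 fun j =>
    rsH (Subgroup.centralizer {P.ρ u}) (P.Ve u j)
      (fun _ hx _ hv => map_mem_Ve (Subgroup.mem_centralizer_singleton_iff.1 hx) hv)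
      ⟨g j, Subgroup.mem_centralizer_singleton_iff.2 (hg j)⟩).choose_spec.1 j ⟨v, hv⟩

/-- the map with eigenvalue `ω ^ (k j²)` on the `j`-th eigenspace of `ρ a` -/
noncomputable def τ (a : W) (k : ZMod 3) : V ≃ₗ[K] V :=
  P.blk a (fun j => sc V (P.χ (k * j * j))) fun _ => (commute_sc _ _).symm

variable {P}

theorem τ_apply (hv : v ∈ P.Ve a j) (k : ZMod 3) : P.τ a k v = (P.χ (k * j * j) : K) • v :=
  blk_apply _ hv

theorem τ_zero : P.τ a 0 = 1 := P.ext_Ve a fun j v hv => by simp [τ_apply hv]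

theorem τ_add (a : W) (k m : ZMod 3) : P.τ a (k + m) = P.τ a k * P.τ a m :=
  P.ext_Ve a fun j v hv => by
    simp only [LinearEquiv.mul_apply, τ_apply hv, map_smul, smul_smul, χv_mul]
    congr 3; ring

theorem τ_inv (a : W) (k : ZMod 3) : (P.τ a k)⁻¹ = P.τ a (-k) :=
  inv_eq_of_mul_eq_one_right (by rw [← τ_add, add_neg_cancel, τ_zero])

theorem conj_τ {m : ZMod 3} (e : g * P.ρ a * g⁻¹ = sc V (P.χ m) * P.ρ b) (k : ZMod 3) :
    g * P.τ a k * g⁻¹ = sc V (P.χ (k * m * m)) * (P.τ b k * P.ρ (-(k * m) • b)) :=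
  P.ext_Ve b fun j v hv => by
    simp only [LinearEquiv.mul_apply, τ_apply (inv_mem_Ve_of_conj e hv), map_smul, apply_inv_apply,
      sc_apply, ρ_smul_apply hv, τ_apply hv, smul_smul, χv_mul]
    congr 3
    linear_combination (k * m * j) * z3_three

theorem conj_τ0 (e : g * P.ρ a * g⁻¹ = P.ρ b) (k : ZMod 3) : g * P.τ a k * g⁻¹ = P.τ b k := by
  have := conj_τ (m := 0) (by simpa using e) k
  rwa [mul_zero, mul_zero, neg_zero, zero_smul, P.zero, χ_zero, map_one, one_mul, mul_one] at this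

theorem commute_τ (e : Commute g (P.ρ a)) (k : ZMod 3) : Commute g (P.τ a k) :=
  mul_inv_eq_iff_eq_mul.1 (conj_τ0 (mul_inv_eq_iff_eq_mul.2 e) k)

theorem τ_neg (a : W) (k : ZMod 3) : P.τ (-a) k = P.τ a k :=
  P.ext_Ve a fun j v hv => by rw [τ_apply hv, τ_apply (mem_Ve_neg hv)]; congr 3; ring

variable (P)

/-- the symplectic transvection -/
def tv (a : W) (k : ZMod 3) : W ≃ₗ[ZMod 3] W where
  toFun w := w + (k * P.β w a) • a
  invFun w := w - (k * P.β w a) • a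
  map_add' x y := by simp only [map_add, LinearMap.add_apply]; module
  map_smul' c x := by simp only [map_smul, LinearMap.smul_apply, smul_eq_mul, RingHom.id_apply]; module
  left_inv w := by simp [P.alt]
  right_inv w := by simp [P.alt]

theorem tv_apply (a : W) (k : ZMod 3) (w : W) : P.tv a k w = w + (k * P.β w a) • a := rfl

theorem tv_inv (a : W) (k : ZMod 3) : (P.tv a k)⁻¹ = P.tv a (-k) :=
  LinearEquiv.ext fun w => (show w - (k * P.β w a) • a = _ by rw [tv_apply]; module)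

theorem ind_τ (a : W) (k : ZMod 3) : P.Ind (P.τ a k) (P.tv a k) 0 := fun w => by
  rw [mul_inv_eq_iff_eq_mul]
  refine P.ext_Ve a fun j v hv => ?_
  have h : P.ρ (P.tv a k w) v = (P.χ (k * P.β w a * P.β w a) : K) • P.ρ w (P.ρ ((k * P.β w a) • a) v) := by
    rw [P.ρ_ρ, smul_smul, χv_mul, map_smul, smul_eq_mul, add_neg_cancel, χ_zero, Units.val_one,
      one_smul, tv_apply]
  simp only [LinearEquiv.mul_apply, τ_apply hv, τ_apply (ρ_mem_Ve hv w), map_smul, h,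
    ρ_smul_apply hv, smul_smul, χv_mul, LinearMap.zero_apply, χ_zero, map_one,
    LinearEquiv.coe_one, id]
  congr 3
  rw [P.β_swap a w]
  linear_combination (-k * j * P.β w a) * z3_three

theorem τ_mem_N (a : W) (k : ZMod 3) : P.τ a k ∈ P.N := (P.ind_τ a k).mem_N

/-- the group generated by the transvections -/
def TV : Subgroup (W ≃ₗ[ZMod 3] W) := Subgroup.closure {s | ∃ a k, s = P.tv a k}

theorem tv_mem_TV (a : W) (k : ZMod 3) : P.tv a k ∈ P.TV := Subgroup.subset_closure ⟨a, k, rfl⟩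

theorem exists_TV_apply (hu : u ≠ 0) (hw : w ≠ 0) : ∃ s ∈ P.TV, s u = w := by
  have key : ∀ u w, P.β u w ≠ 0 → ∃ s ∈ P.TV, s u = w := fun u w h =>
    ⟨_, P.tv_mem_TV (w - u) (P.β u w), by simp [tv_apply, P.alt, z3_mul_self h]⟩
  obtain ⟨x, h1, h2⟩ : ∃ x, P.β u x ≠ 0 ∧ P.β w x ≠ 0 := by
    obtain ⟨x, hx⟩ := P.exists_β_eq_one hu
    obtain ⟨y, hy⟩ := P.exists_β_eq_one hw
    by_cases e : P.β w x = 0
    · by_cases e' : P.β u y = 0
      · exact ⟨x + y, by simp [hx, e'], by simp [hy, e]⟩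
      · exact ⟨y, e', by simp [hy]⟩
    · exact ⟨x, by simp [hx], e⟩
  obtain ⟨s, hs, e⟩ := key u x h1
  obtain ⟨t, ht, e'⟩ := key x w fun h => h2 (P.β_comm0 h)
  exact ⟨t * s, mul_mem ht hs, by rw [LinearEquiv.mul_apply, e, e']⟩

/-- `R` and all `τ a k` lie in `X` -/
def H1 (X : Subgroup (V ≃ₗ[K] V)) : Prop := P.R ≤ X ∧ ∀ a k, P.τ a k ∈ X

variable {P} {X : Subgroup (V ≃ₗ[K] V)}

theorem H1.ρ (h : P.H1 X) (u : W) : P.ρ u ∈ X := h.1 (P.ρ_mem_R u)

theorem H1.sc (h : P.H1 X) (c : Kˣ) : sc V c ∈ X := h.1 (P.sc_mem_R c)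

theorem H1.exists_ind (h : P.H1 X) {s : W ≃ₗ[ZMod 3] W} (hs : s ∈ P.TV) : ∃ n ∈ X, P.Ind n s 0 := by
  induction hs using Subgroup.closure_induction with
  | mem s hs => obtain ⟨a, k, rfl⟩ := hs; exact ⟨_, h.2 a k, P.ind_τ a k⟩
  | one => exact ⟨1, one_mem _, ind_one⟩
  | mul s t _ _ hs ht =>
    obtain ⟨n, hn, e⟩ := hs
    obtain ⟨m, hm, e'⟩ := ht
    exact ⟨n * m, mul_mem hn hm, (e.mul e').congr (fun _ => rfl) (by simp)⟩
  | inv s _ hs =>
    obtain ⟨n, hn, e⟩ := hs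
    exact ⟨n⁻¹, inv_mem hn, e.inv.congr (fun _ => rfl) (by simp)⟩

/-- `X ∩ N` is transitive on the non-scalar elements of order three of `R` -/
theorem H1.exists_conj (h : P.H1 X) (hu : u ≠ 0) (hw : w ≠ 0) (k : ZMod 3) :
    ∃ n ∈ X, n ∈ P.N ∧ n * P.ρ u * n⁻¹ = C6.sc V (P.χ k) * P.ρ w := by
  obtain ⟨s, hs, e⟩ := P.exists_TV_apply hu hw
  obtain ⟨n, hn, e'⟩ := h.exists_ind hs
  obtain ⟨y, hy⟩ := P.exists_β_eq_one hw
  have := (ind_ρ (-k • y)).mul e'
  refine ⟨_, mul_mem (h.ρ _) hn, this.mem_N, ?_⟩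
  rw [this u]
  simp [e, P.β_swap y w, hy]

variable (P)

/-- the subsystem on an invariant subspace -/
def sub (S : Submodule (ZMod 3) W) (U : Submodule K V) (hU : ∀ w ∈ S, ∀ v ∈ U, P.ρ w v ∈ U)
    (hS : ∀ w ∈ S, (∀ w' ∈ S, P.β w w' = 0) → w = 0) (hc : Nat.card S = finrank K U ^ 2) :
    Pau K U S where
  β := P.β.restrict S
  alt w := P.alt w
  nondeg w h := Subtype.ext (hS w w.2 fun w' hw' => h ⟨w', hw'⟩)
  ω := P.ω
  hω := P.hω
  three := P.three
  ρ w :=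
    { toFun := fun v => ⟨P.ρ w v, hU _ w.2 _ v.2⟩
      invFun := fun v => ⟨P.ρ (-w) v, hU _ (neg_mem w.2) _ v.2⟩
      map_add' := fun x y => Subtype.ext (by simp)
      map_smul' := fun c x => Subtype.ext (by simp)
      left_inv := fun v => Subtype.ext (P.ρ_neg_ρ w v)
      right_inv := fun v => Subtype.ext (P.ρ_ρ_neg w v) }
  zero := LinearEquiv.ext fun v => Subtype.ext (P.ρ_zero_apply v)
  mul w w' := LinearEquiv.ext fun v => Subtype.ext (P.ρ_ρ w w' v)
  card := hc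
  fin := have := P.fin; inferInstance

section sub

variable {P} {S : Submodule (ZMod 3) W} {U : Submodule K V} {hU : ∀ w ∈ S, ∀ v ∈ U, P.ρ w v ∈ U}
  {hS : ∀ w ∈ S, (∀ w' ∈ S, P.β w w' = 0) → w = 0} {hc : Nat.card S = finrank K U ^ 2}

theorem sub_ρ (w : S) (v : U) : ((P.sub S U hU hS hc).ρ w v : V) = P.ρ w v := rfl

theorem sub_β (w w' : S) : (P.sub S U hU hS hc).β w w' = P.β w w' := rfl

theorem sub_χ (k : ZMod 3) : (P.sub S U hU hS hc).χ k = P.χ k := rfl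

theorem mem_sub_Ve {w : S} {v : U} : v ∈ (P.sub S U hU hS hc).Ve w j ↔ v.1 ∈ P.Ve w j :=
  Subtype.ext_iff

theorem sub_τ (a : S) (k : ZMod 3) (v : U) : ((P.sub S U hU hS hc).τ a k v : V) = P.τ a k v :=
  LinearMap.congr_fun (((P.sub S U hU hS hc).isDecProj a).ext
    (f := U.subtype ∘ₗ ((P.sub S U hU hS hc).τ a k : U →ₗ[K] U))
    (g := (P.τ a k : V →ₗ[K] V) ∘ₗ U.subtype) fun j x hx => by
      simp only [LinearMap.comp_apply, LinearEquiv.coe_coe, Submodule.subtype_apply]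
      rw [τ_apply hx, τ_apply (mem_sub_Ve.1 hx)]; rfl) v

theorem sub_H1 {C : Subgroup (V ≃ₗ[K] V)} (hC : ∀ g ∈ C, ∀ v ∈ U, g v ∈ U)
    (h1 : ∀ c, C6.sc V c ∈ C) (h2 : ∀ w ∈ S, P.ρ w ∈ C) (h3 : ∀ w ∈ S, ∀ k, P.τ w k ∈ C) :
    (P.sub S U hU hS hc).H1 (rsH C U hC).range :=
  ⟨by
    rintro _ ⟨c, w, rfl⟩
    exact ⟨⟨_, mul_mem (h1 c) (h2 w w.2)⟩, LinearEquiv.ext fun v => rfl⟩,
  fun a k => ⟨⟨_, h3 a a.2 k⟩, LinearEquiv.ext fun v => Subtype.ext (sub_τ a k v).symm⟩⟩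

end sub

/-- the orthogonal complement of the pair `u, y` -/
def W1 (u y : W) : Submodule (ZMod 3) W := LinearMap.ker (P.β u) ⊓ LinearMap.ker (P.β y)

theorem mem_W1 : w ∈ P.W1 u y ↔ P.β u w = 0 ∧ P.β y w = 0 := Iff.rfl

theorem proj_mem_W1 (hy : P.β u y = 1) (w : W) :
    w - P.β u w • y + P.β y w • u ∈ P.W1 u y := by
  rw [mem_W1]
  simp [P.alt, hy, P.β_swap y u]

theorem W1_nondeg (hy : P.β u y = 1) :
    ∀ w ∈ P.W1 u y, (∀ w' ∈ P.W1 u y, P.β w w' = 0) → w = 0 := fun w hw h =>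
  P.nondeg _ fun v => by
    simpa [P.β_comm0 hw.1, P.β_comm0 hw.2] using h _ (P.proj_mem_W1 hy v)

theorem finrank_W1 (hy : P.β u y = 1) :
    finrank (ZMod 3) (P.W1 u y) + 2 = finrank (ZMod 3) W := by
  have := P.fin
  let f : W →ₗ[ZMod 3] (ZMod 3 × ZMod 3) := (P.β u).prod (P.β y)
  have h1 := f.finrank_range_add_finrank_ker
  have h2 : LinearMap.range f = ⊤ := by
    rw [LinearMap.range_eq_top]
    rintro ⟨a, b⟩
    refine ⟨a • y - b • u, ?_⟩
    simp [f, hy, P.alt, P.β_swap y u]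
  have h3 : LinearMap.ker f = P.W1 u y := LinearMap.ker_prod _ _
  rw [h2, h3, finrank_top] at h1
  simp only [finrank_prod, finrank_self] at h1
  omega

theorem three_mul_finrank_Ve (hu : u ≠ 0) (j : ZMod 3) :
    3 * finrank K (P.Ve u j) = finrank K V := by
  have := P.fd
  obtain ⟨y, hy⟩ := P.exists_β_eq_one hu
  have key : ∀ i j, finrank K (P.Ve u i) ≤ finrank K (P.Ve u j) := fun i j =>
    LinearMap.finrank_le_finrank_of_injective
      (f := ((P.ρ ((j - i) • y) : V →ₗ[K] V).domRestrict _).codRestrict (P.Ve u j)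
        fun v => by simpa [hy] using ρ_mem_Ve v.2 ((j - i) • y))
      fun a b e => Subtype.ext ((P.ρ _).injective (congrArg Subtype.val e))
  let e : V ≃ₗ[K] (∀ i, P.Ve u i) := LinearEquiv.ofBijective
    (LinearMap.pi fun i => (P.pr u i).codRestrict _ (P.pr_mem u i))
    ⟨(injective_iff_map_eq_zero _).2 fun v hv => by
      rw [← (P.isDecProj u).sum v]
      exact Finset.sum_eq_zero fun i _ => congrArg Subtype.val (congrFun hv i),
    fun x => ⟨∑ i, (x i : V), funext fun i => Subtype.ext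
      ((P.isDecProj u).apply_sum (fun i => (x i).2) i)⟩⟩
  rw [e.finrank_eq, Module.finrank_pi_fintype, sum_z3, le_antisymm (key 0 j) (key j 0),
    le_antisymm (key 1 j) (key j 1), le_antisymm (key (-1) j) (key j (-1))]
  ring

include P in
theorem card_eq_pow : Nat.card W = 3 ^ finrank (ZMod 3) W := by
  have := P.fin
  rw [Module.natCard_eq_pow_finrank (K := ZMod 3), Nat.card_zmod]

theorem card_W1 (hy : P.β u y = 1) (j : ZMod 3) :
    Nat.card (P.W1 u y) = finrank K (P.Ve u j) ^ 2 := by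
  have := P.fin
  have h1 := P.three_mul_finrank_Ve (u := u) (by rintro rfl; simp at hy) j
  have h2 := P.card
  rw [P.card_eq_pow, ← P.finrank_W1 hy, ← h1] at h2
  rw [Module.natCard_eq_pow_finrank (K := ZMod 3), Nat.card_zmod]
  linarith [h2, pow_add 3 (finrank (ZMod 3) (P.W1 u y)) 2, mul_pow 3 (finrank K (P.Ve u j)) 2]

/-- the restricted Pauli system on an eigenspace -/
def res (hy : P.β u y = 1) (j : ZMod 3) : Pau K (P.Ve u j) (P.W1 u y) :=
  P.sub _ _ (fun _ hw _ hv => ρ_mem_Ve' hv hw.1) (P.W1_nondeg hy) (P.card_W1 hy j)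

include P in
theorem finrank_eq {m : ℕ} (h : finrank (ZMod 3) W = 2 * m) : finrank K V = 3 ^ m := by
  have := P.card
  rw [P.card_eq_pow, h, pow_mul'] at this
  exact Nat.pow_left_injective two_ne_zero this.symm

/-- the order of a subspace invariant under a non-commuting pair is divisible by three -/
theorem three_dvd_finrank (hy : P.β u y = 1) {U : Submodule K V} (h1 : ∀ v ∈ U, P.ρ u v ∈ U)
    (h2 : ∀ v ∈ U, P.ρ y v ∈ U) : 3 ∣ finrank K U := by
  have := P.fd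
  let f : U →ₗ[K] U := (P.ρ u : V →ₗ[K] V).restrict h1
  let g : U →ₗ[K] U := (P.ρ y : V →ₗ[K] V).restrict h2
  have e : f * g = (P.ω : K) • (g * f) := LinearMap.ext fun v => Subtype.ext (by
    have := P.ρ_comm u y v
    rwa [hy, χ_one] at this)
  have hf : LinearMap.det f ≠ 0 := fun h => by
    obtain ⟨v, hv, h0⟩ := (Submodule.ne_bot_iff _).1 (LinearMap.det_eq_zero_iff_ker_ne_bot.1 h)
    exact h0 (Subtype.ext ((P.ρ u).map_eq_zero_iff.1 (congrArg Subtype.val hv)))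
  have hg : LinearMap.det g ≠ 0 := fun h => by
    obtain ⟨v, hv, h0⟩ := (Submodule.ne_bot_iff _).1 (LinearMap.det_eq_zero_iff_ker_ne_bot.1 h)
    exact h0 (Subtype.ext ((P.ρ y).map_eq_zero_iff.1 (congrArg Subtype.val hv)))
  have h3 := congrArg LinearMap.det e
  rw [LinearMap.det_smul, map_mul, map_mul, mul_comm (LinearMap.det g), eq_comm,
    mul_eq_right₀ (mul_ne_zero hf hg)] at h3
  have h4 : orderOf P.ω = 3 := orderOf_eq_prime P.ω_cube fun e => P.ω_ne_one (by rw [e]; rfl)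
  rw [← h4]
  exact orderOf_dvd_of_pow_eq_one (Units.ext (by simpa using h3))

end Pau

end Cfsg.Lib.Class.C3
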