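import Cfsg.Agent.Class.C3.Beta

/-!
# The endgame, first part: conjugates of the `ρ u` inside the normaliser
-/

namespace Cfsg.Lib.Class.C3

open Module C6

variable {K V W : Type*} [Field K] [AddCommGroup V] [Module K V] [AddCommGroup W]
  [Module (ZMod 3) W]

theorem finrank_le_map_add [Module.Finite (ZMod 3) W] (f : W →ₗ[ZMod 3] W)
    (S : Submodule (ZMod 3) W) :
    finrank (ZMod 3) S ≤ finrank (ZMod 3) (S.map f) + finrank (ZMod 3) (LinearMap.ker f) := by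
  have h := (f.domRestrict S).finrank_range_add_finrank_ker
  rw [LinearMap.range_domRestrict, LinearMap.ker_domRestrict,
    ← Submodule.finrank_map_subtype_eq S (Submodule.comap _ _), Submodule.map_comap_subtype] at h
  have := Submodule.finrank_mono (inf_le_right : S ⊓ LinearMap.ker f ≤ _)
  omega

theorem card_sub [Finite W] (S : Submodule (ZMod 3) W) : Nat.card S = 3 ^ finrank (ZMod 3) S := by
  rw [Module.natCard_eq_pow_finrank (K := ZMod 3), Nat.card_zmod]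

/-- `s - 1` -/
abbrev sub1 (s : W ≃ₗ[ZMod 3] W) : W →ₗ[ZMod 3] W := (s : W →ₗ[ZMod 3] W) - LinearMap.id

theorem sub1_apply (s : W ≃ₗ[ZMod 3] W) (w : W) : sub1 s w = s w - w := rfl

theorem mem_ker_sub1 {s : W ≃ₗ[ZMod 3] W} {w : W} : w ∈ LinearMap.ker (sub1 s) ↔ s w = w :=
  sub_eq_zero

theorem sub1_cube {s : W ≃ₗ[ZMod 3] W} (h : s ^ 3 = 1) (w : W) : sub1 s (sub1 s (sub1 s w)) = 0 := by
  have : s (s (s w)) = w := by
    rw [← LinearEquiv.mul_apply, ← LinearEquiv.mul_apply, ← sq, ← pow_succ, h]; rfl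
  simp only [sub1_apply, map_sub, this]
  linear_combination (norm := module) z3_three • (s w - s (s w))

theorem le_three_mul_finrank_ker [Module.Finite (ZMod 3) W] {s : W ≃ₗ[ZMod 3] W} (h : s ^ 3 = 1) :
    finrank (ZMod 3) W ≤ 3 * finrank (ZMod 3) (LinearMap.ker (sub1 s)) := by
  have h1 := finrank_le_map_add (sub1 s) ⊤
  have h2 := finrank_le_map_add (sub1 s) (Submodule.map (sub1 s) ⊤)
  have h3 := finrank_le_map_add (sub1 s) (Submodule.map (sub1 s) (Submodule.map (sub1 s) ⊤))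
  rw [show Submodule.map (sub1 s) (Submodule.map (sub1 s) (Submodule.map (sub1 s) ⊤)) = ⊥ from
    eq_bot_iff.2 (by rintro _ ⟨_, ⟨_, ⟨w, -, rfl⟩, rfl⟩, rfl⟩; exact sub1_cube h w),
    finrank_bot] at h3
  rw [finrank_top] at h1
  omega

namespace Pau

variable {P : Pau K V W} {u w y a b : W} {i j k : ZMod 3} {v : V} {g x : V ≃ₗ[K] V}
  {s : W ≃ₗ[ZMod 3] W} {l : W →ₗ[ZMod 3] ZMod 3} {X : Subgroup (V ≃ₗ[K] V)}

theorem Ind.cube (h : P.Ind g s l) {c : Kˣ} (e : g ^ 3 = sc V c) : s ^ 3 = 1 := by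
  obtain ⟨l', h'⟩ := h.pow 3
  exact h'.eq_one (e ▸ P.sc_mem_R c)

theorem CentN.of_mem_R (hC : P.CentN X) (h : P.H1 X) (hg : g ∈ X) (hu : u ≠ 0)
    (e : g * P.ρ u * g⁻¹ ∈ P.R) : g ∈ P.N := by
  obtain ⟨a, w, e⟩ := P.exists_of_conj_mem e
  obtain ⟨n, hn, hn', e'⟩ := h.exists_conj hu (P.ne_zero_of_conj e hu) a
  refine (P.N.mul_mem_cancel_left (inv_mem hn')).1 (hC u hu _ (mul_mem (inv_mem hn) hg) ?_)
  refine mul_inv_eq_iff_eq_mul.1 ?_
  rw [show n⁻¹ * g * P.ρ u * (n⁻¹ * g)⁻¹ = n⁻¹ * (g * P.ρ u * g⁻¹) * n by group, e, ← e']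
  group

variable (P) in
/-- the vectors `w` with `g ρ w g⁻¹` in the normaliser -/
def Aset (g : V ≃ₗ[K] V) : Submodule (ZMod 3) W where
  carrier := {w | g * P.ρ w * g⁻¹ ∈ P.N}
  add_mem' {a b} ha hb := by
    have := P.N.mul_mem ha hb
    rwa [conj_mul, P.mul', conj_sc_mul, P.N.mul_mem_cancel_left (P.sc_mem_N _)] at this
  zero_mem' := by simp [P.zero]
  smul_mem' c a ha := by
    rcases z3_cases c with rfl | rfl | rfl
    · simp [P.zero]
    · simpa using ha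
    · simpa only [neg_smul, one_smul, Set.mem_ofPred_eq, ← ρ_inv, conj_inv] using P.N.inv_mem ha

theorem mem_Aset : w ∈ P.Aset g ↔ g * P.ρ w * g⁻¹ ∈ P.N := Iff.rfl

variable (P) in
/-- the orthogonal complement -/
def perp (S : Submodule (ZMod 3) W) : Submodule (ZMod 3) W := P.β.orthogonal S

theorem mem_perp {S : Submodule (ZMod 3) W} : w ∈ P.perp S ↔ ∀ b ∈ S, P.β b w = 0 := Iff.rfl

theorem finrank_perp (S : Submodule (ZMod 3) W) :
    finrank (ZMod 3) S + finrank (ZMod 3) (P.perp S) = finrank (ZMod 3) W := by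
  have := P.fin
  have h := LinearMap.BilinForm.finrank_orthogonal (B := P.β)
    ⟨P.nondeg, fun u h => P.nondeg u fun v => P.β_comm0 (h v)⟩ S
  have := Submodule.finrank_le S
  rw [perp, h]
  omega

theorem CentN.ker_eq (hC : P.CentN X) (h : P.H1 X) (hg : g ∈ X) (hn : g ∉ P.N) (ha : a ≠ 0)
    (e : P.Ind (g * P.ρ a * g⁻¹) s l) : s ≠ 1 ∧ LinearMap.ker (sub1 s) = P.Aset g⁻¹ := by
  refine ⟨fun h1 => hn (hC.of_mem_R h hg ha (h1 ▸ e).mem_R), Submodule.ext fun w => ?_⟩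
  rw [mem_ker_sub1, mem_Aset]
  have e1 := e w
  constructor
  · intro h1
    rw [h1] at e1
    refine hC.of_mem_R h (mul_mem (mul_mem (inv_mem hg) (h.ρ w)) (inv_mem (inv_mem hg))) ha
      ⟨(P.χ (l w))⁻¹, a, ?_⟩
    have e2 : P.ρ w * (g * P.ρ a * g⁻¹) * (P.ρ w)⁻¹ = sc V (P.χ (l w))⁻¹ * (g * P.ρ a * g⁻¹) := by
      rw [map_inv, eq_inv_mul_iff_mul_eq, ← mul_assoc, ← mul_assoc, ← e1]; group
    rw [show g⁻¹ * P.ρ w * g⁻¹⁻¹ * P.ρ a * (g⁻¹ * P.ρ w * g⁻¹⁻¹)⁻¹ =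
      g⁻¹ * (P.ρ w * (g * P.ρ a * g⁻¹) * (P.ρ w)⁻¹) * g⁻¹⁻¹ by group, e2, conj_sc_mul]
    group
  · intro h1
    obtain ⟨c, a', e2⟩ := mul_mem (P.ρ_mem_R a) (P.conj_mem_R h1 (inv_mem (P.ρ_mem_R a)))
    have e3 : g * P.ρ a * g⁻¹ * P.ρ w * (g * P.ρ a * g⁻¹)⁻¹ * (P.ρ w)⁻¹ =
        sc V c * (g * P.ρ a' * g⁻¹) := by
      rw [← conj_sc_mul, ← e2]; group
    obtain rfl : a' = 0 := by
      by_contra h0
      refine hn (hC.of_mem_R h hg h0 ((P.R.mul_mem_cancel_left (P.sc_mem_R c)).1 ?_))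
      rw [← e3, e1]
      exact mul_mem ⟨_, _, rfl⟩ (inv_mem (P.ρ_mem_R w))
    rw [P.zero, mul_one, mul_inv_cancel, mul_one, mul_inv_eq_iff_eq_mul] at e3
    exact (e.eq e3).1

theorem Ind.tr_ne_zero (e : P.Ind x s l) {B : Submodule (ZMod 3) W}
    (h1 : ∀ b ∈ B, Commute x (P.ρ b)) (h2 : ∀ v ∈ P.perp B, ∃ w, s w - w = v) : tr x ≠ 0 := by
  obtain ⟨v, hv⟩ : ∃ v, tr (P.ρ v * x) ≠ 0 := by
    by_contra! hc
    have := P.fd
    have h3 : ∀ f : V →ₗ[K] V, LinearMap.trace K V (f * x) = 0 := fun f => by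
      refine Submodule.span_induction (p := fun f _ => LinearMap.trace K V (f * x) = 0) ?_ ?_ ?_ ?_
        (P.span f)
      · rintro _ ⟨u, rfl⟩; exact hc u
      · simp
      · intro a b _ _ ha hb; rw [add_mul, map_add, ha, hb, add_zero]
      · intro c a _ ha; rw [smul_mul_assoc, map_smul, ha, smul_zero]
    refine P.natCast_finrank_ne ?_
    rw [← P.tr_ρ_zero, P.zero, ← inv_mul_cancel x]
    exact h3 (x⁻¹ : V ≃ₗ[K] V)
  obtain ⟨w, rfl⟩ := h2 v fun b hb => by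
    have := tr_conj (P.ρ b) (P.ρ v * x)
    rw [← conj_mul, P.conj_ρ, ← (h1 b hb).eq, mul_inv_cancel_right, mul_assoc, tr_sc_mul,
      mul_eq_right₀ hv] at this
    exact P.χv_inj (by simpa using this)
  have := tr_conj (P.ρ w)⁻¹ x
  rw [inv_inv, mul_assoc, mul_inv_eq_iff_eq_mul.1 (e w), mul_assoc, ← mul_assoc, sc_comm, mul_assoc,
    ← mul_assoc _ _ x, ρ_inv, P.mul', mul_assoc, tr_sc_mul, tr_sc_mul, neg_add_eq_sub] at this
  rw [← this]
  simpa using hv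

/-- conjugates of the `ρ u` in the normaliser -/
theorem CentN.of_mem_N (hC : P.CentN X) (h : P.H1 X) (h4 : finrank (ZMod 3) W = 4) (hg : g ∈ X)
    (hu : u ≠ 0) (e : g * P.ρ u * g⁻¹ ∈ P.N) : g ∈ P.N := by
  by_contra hn
  have := P.fin
  have two : ∀ g ∈ X, g ∉ P.N → ∀ a ∈ P.Aset g, a ≠ 0 → 2 ≤ finrank (ZMod 3) (P.Aset g⁻¹) :=
    fun g hg hn a ha ha0 => by
      obtain ⟨s, l, e⟩ := exists_ind ha
      have := le_three_mul_finrank_ker (e.cube (c := 1) (by rw [conj_pow, ρ_cube]; simp))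
      rw [(hC.ker_eq h hg hn ha0 e).2] at this
      omega
  have hB := two g hg hn u e hu
  obtain ⟨b, hb, hb0⟩ := (P.Aset g⁻¹).exists_mem_ne_zero_of_ne_bot fun e => by
    rw [e, finrank_bot] at hB; omega
  have hA := two g⁻¹ (inv_mem hg) (by simpa using hn) b hb hb0
  rw [inv_inv] at hA
  choose s l hs using fun a : P.Aset g => exists_ind a.2
  have hk := fun (a : P.Aset g) (ha : a ≠ 0) =>
    hC.ker_eq h hg hn (show a.1 ≠ 0 by simpa using ha) (hs a)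
  set B := P.Aset g⁻¹
  have hfix : ∀ a, ∀ b ∈ B, s a b = b := fun a b hb => by
    by_cases ha : a = 0
    · rw [(hs a).eq_one (by simp [ha, P.zero])]; rfl
    · exact mem_ker_sub1.1 ((hk a ha).2.ge hb)
  have hperp : ∀ a w, s a w - w ∈ P.perp B := fun a w b hb => by
    rw [map_sub, sub_eq_zero, ← (hs a).β b w, hfix a b hb]
  have hinj : ∀ w ∉ B, Function.Injective fun a => (⟨s a w - w, hperp a w⟩ : P.perp B) :=
    fun w hw a a' e => by
      by_contra hne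
      have e1 : s a w = s a' w := sub_left_injective (congrArg Subtype.val e)
      have e2 := (hs (a - a')).mul (hs a')
      rw [conj_mul, P.mul', conj_sc_mul, Submodule.coe_sub, sub_add_cancel] at e2
      rw [← e2.unique ((hs a).sc_mul _), LinearEquiv.mul_apply, ← mem_ker_sub1,
        (hk _ (sub_ne_zero.2 hne)).2] at e1
      exact hw (by rwa [(s a').injective (hfix a' _ e1)] at e1)
  have hp := finrank_perp (P := P) B
  obtain ⟨w₀, hw₀⟩ : ∃ w, w ∉ B := by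
    by_contra! hc
    exact (hk ⟨u, e⟩ fun h => hu (congrArg Subtype.val h)).1 (LinearEquiv.ext fun w => hfix _ w (hc w))
  have hcard := Nat.card_le_card_of_injective _ (hinj w₀ hw₀)
  rw [card_sub, card_sub, Nat.pow_le_pow_iff_right (by norm_num)] at hcard
  have hsurj : ∀ w ∉ B, ∀ v ∈ P.perp B, ∃ a, s a w - w = v := fun w hw v hv => by
    obtain ⟨a, ha⟩ := ((Nat.bijective_iff_injective_and_card _).2 ⟨hinj w hw, by
      rw [card_sub, card_sub]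
      congr 1; omega⟩).2 ⟨v, hv⟩
    exact ⟨a, congrArg Subtype.val ha⟩
  have hBB : P.perp B = B := Submodule.eq_of_le_of_finrank_eq (fun w hw => by
    by_contra hw'
    obtain ⟨a, ha⟩ := hsurj w hw' (-w) (neg_mem hw)
    exact hw' (by
      rw [(s a).map_eq_zero_iff.1 (by linear_combination (norm := module) ha : s a w = 0)]
      exact B.zero_mem)) (by omega)
  let a₁ : P.Aset g := ⟨u, e⟩
  have hr : ∀ v ∈ P.perp B, ∃ w, s a₁ w - w = v := fun v hv => by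
    have h1 := (sub1 (s a₁)).finrank_range_add_finrank_ker
    rw [(hk a₁ fun h => hu (congrArg Subtype.val h)).2] at h1
    exact (Submodule.eq_of_le_of_finrank_eq (S₁ := LinearMap.range (sub1 (s a₁)))
      (by rintro _ ⟨w, rfl⟩; exact hperp a₁ w) (by omega)).ge hv
  obtain ⟨b₀, hb₀, hγ⟩ : ∃ b ∈ B, l a₁ b ≠ 0 := by
    by_contra! hc
    exact (hs a₁).tr_ne_zero (fun b hb => (hs a₁).commute (hfix _ b hb) (hc b hb)) hr
      (by rw [tr_conj, P.tr_ρ hu])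
  obtain ⟨w, hw⟩ := hr (l a₁ b₀ • b₀) (hBB.ge (B.smul_mem _ hb₀))
  have hb₀0 : b₀ ≠ 0 := by rintro rfl; simp at hγ
  have key : ∀ a : P.Aset g, ∃ c, g * P.ρ a * g⁻¹ * (P.τ b₀ 1 * P.ρ w) * (g * P.ρ a * g⁻¹)⁻¹ =
      sc V c * (P.τ b₀ 1 * P.ρ (s a w - l a b₀ • b₀)) := fun a => by
    have h1 := hs a b₀
    rw [hfix a b₀ hb₀] at h1
    rw [← conj_mul, conj_τ h1, hs a w, sc_mul_sc_mul, mul_assoc (P.τ b₀ 1), P.mul', ← mul_assoc (P.τ _ _),
      sc_comm, one_mul (l a b₀), neg_smul, neg_add_eq_sub, mul_assoc (sc V _),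
      ← mul_assoc (sc V _) (sc V _), ← map_mul (sc V)]
    exact ⟨_, rfl⟩
  have hc : P.τ b₀ 1 * P.ρ w ∈ X := mul_mem (h.2 _ _) (h.ρ _)
  have hI := (P.ind_τ b₀ 1).mul (ind_ρ w)
  generalize hc' : P.τ b₀ 1 * P.ρ w = c' at key hc hI
  have hy : g⁻¹ * c' * g ∈ P.N := by
    obtain ⟨c, e1⟩ := key a₁
    rw [show s a₁ w - l a₁ b₀ • b₀ = w by rw [← hw]; abel, hc', show a₁.1 = u from rfl] at e1
    refine hC.of_mem_R h (mul_mem (mul_mem (inv_mem hg) hc) hg) hu ⟨c⁻¹, u, ?_⟩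
    have e2 : c' * (g * P.ρ u * g⁻¹) * c'⁻¹ = sc V c⁻¹ * (g * P.ρ u * g⁻¹) := by
      rw [map_inv, eq_inv_mul_iff_mul_eq, ← mul_assoc, ← mul_assoc, ← e1]; group
    rw [show g⁻¹ * c' * g * P.ρ u * (g⁻¹ * c' * g)⁻¹ =
      g⁻¹ * (c' * (g * P.ρ u * g⁻¹) * c'⁻¹) * g⁻¹⁻¹ by group, e2, conj_sc_mul]
    group
  have hwB : w ∉ B := fun hwB => by
    rw [hfix _ w hwB, sub_self, eq_comm, smul_eq_zero] at hw
    exact hw.elim hγ hb₀0
  have hle : P.perp B ≤ Submodule.span (ZMod 3) {b₀} := fun v hv => by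
    obtain ⟨a, rfl⟩ := hsurj w hwB v hv
    obtain ⟨c, a', e1⟩ := P.conj_mem_R hy (P.ρ_mem_R a)
    have e2 : c' * (g * P.ρ a * g⁻¹) * c'⁻¹ = sc V c * (g * P.ρ a' * g⁻¹) := by
      rw [← conj_sc_mul, ← e1]; group
    have ha' : a' ∈ P.Aset g := (P.N.mul_mem_cancel_left (P.sc_mem_N c)).1
      (e2 ▸ mul_mem (mul_mem hI.mem_N a.2) (inv_mem hI.mem_N))
    have e3 := (hI.mul (hs a)).mul hI.inv
    rw [e2] at e3
    have e4 := e3.unique ((hs ⟨a', ha'⟩).sc_mul c)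
    rw [mul_one, show P.tv b₀ 1 * s a = s a * P.tv b₀ 1 by
      rw [mul_inv_eq_iff_eq_mul.1 (conj_tv (hs a).mem_SpG b₀ 1), hfix a b₀ hb₀],
      mul_inv_cancel_right] at e4
    obtain rfl : a = ⟨a', ha'⟩ := hinj w hwB (Subtype.ext (by simp only [e4]))
    obtain ⟨d, e5⟩ := key ⟨a', ha'⟩
    have e6 : sc V c⁻¹ * c' = sc V d * (P.τ b₀ 1 * P.ρ (s ⟨a', ha'⟩ w - l ⟨a', ha'⟩ b₀ • b₀)) := by
      rw [← e5, map_inv, inv_mul_eq_iff_eq_mul, ← mul_assoc, ← mul_assoc, ← e2]; group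
    rw [← hc', ← mul_assoc, ← mul_assoc, ← sc_comm, ← sc_comm, mul_assoc, mul_assoc,
      mul_right_inj] at e6
    exact Submodule.mem_span_singleton.2 ⟨l ⟨a', ha'⟩ b₀, by
      linear_combination (norm := module) (P.eq_of_sc_ρ e6).1⟩
  have h5 := Submodule.finrank_mono hle
  rw [finrank_span_singleton hb₀0] at h5
  omega

end Pau

end Cfsg.Lib.Class.C3
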