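import Cfsg.Agent.Class.C3.End1
import Cfsg.Agent.Class.C3.Grp
import Cfsg.Agent.Class.C6.Endgame

/-!
# The endgame, second part: involutions and the centralisers of elements of order four
-/

namespace Cfsg.Lib.Class.C3

open Module C6

variable {K V W : Type*} [Field K] [AddCommGroup V] [Module K V] [AddCommGroup W]
  [Module (ZMod 3) W]

/-- the image of `t + 1` -/
def Ut (t : V ≃ₗ[K] V) : Submodule K V := LinearMap.range ((t : V →ₗ[K] V) + LinearMap.id)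

theorem mem_Ut {t : V ≃ₗ[K] V} {v : V} : v ∈ Ut t ↔ ∃ x, t x + x = v := Iff.rfl

theorem map_mem_Ut {g t : V ≃ₗ[K] V} (h : Commute g t) {v : V} (hv : v ∈ Ut t) : g v ∈ Ut t := by
  obtain ⟨x, rfl⟩ := mem_Ut.1 hv
  exact mem_Ut.2 ⟨g x, by rw [map_add, commute_apply h]⟩

theorem Ut_conj (g t : V ≃ₗ[K] V) : Ut (g * t * g⁻¹) = (Ut t).map (g : V →ₗ[K] V) := by
  ext v
  simp only [mem_Ut, Submodule.mem_map, LinearEquiv.mul_apply, LinearEquiv.coe_coe]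
  exact ⟨fun ⟨x, e⟩ => ⟨_, ⟨g⁻¹ x, rfl⟩, by rw [map_add, apply_inv_apply, e]⟩,
    fun ⟨_, ⟨x, rfl⟩, e⟩ => ⟨g x, by rw [inv_apply_apply, ← map_add, e]⟩⟩

theorem finrank_Ut_conj (g t : V ≃ₗ[K] V) : finrank K (Ut (g * t * g⁻¹)) = finrank K (Ut t) := by
  rw [Ut_conj]; exact LinearEquiv.finrank_map_eq _ _

/-- `h` is a root of the involution `t` of rank three and acts as a scalar on the image of `t + 1` -/
structure HT (h t : V ≃ₗ[K] V) : Prop where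
  sq : ∃ c, t = sc V c * (h * h)
  inv : t * t = 1
  rk : finrank K (Ut t) = 3
  smul : ∃ c : K, ∀ v ∈ Ut t, h v = c • v

theorem HT.conj {h t : V ≃ₗ[K] V} (H : HT h t) (g : V ≃ₗ[K] V) :
    HT (g * h * g⁻¹) (g * t * g⁻¹) where
  sq := H.sq.imp fun c e => by rw [e, conj_sc_mul, conj_mul]
  inv := by rw [conj_mul, H.inv, mul_one, mul_inv_cancel]
  rk := (finrank_Ut_conj g t).trans H.rk
  smul := H.smul.imp fun c e v hv => by
    rw [Ut_conj] at hv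
    obtain ⟨x, hx, rfl⟩ := hv
    simp [LinearEquiv.mul_apply, inv_apply_apply, e x hx]

namespace Pau

variable {P : Pau K V W} {u w y a b : W} {i j k : ZMod 3} {v : V} {g h t x : V ≃ₗ[K] V}
  {s : W ≃ₗ[ZMod 3] W} {l : W →ₗ[ZMod 3] ZMod 3} {X : Subgroup (V ≃ₗ[K] V)}

theorem map_mem_Ve_neg (e : t * P.ρ u * t⁻¹ = P.ρ (-u)) (hv : v ∈ P.Ve u j) : t v ∈ P.Ve u (-j) := by
  have := mem_Ve_neg (map_mem_Ve_of_conj (k := 0) (by simpa using e) hv)
  rwa [neg_neg, sub_zero] at this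

theorem finrank_Ut (ht : t * t = 1) (e : t * P.ρ u * t⁻¹ = P.ρ (-u)) : finrank K (Ut t) =
    finrank K (P.Ve u 1) + finrank K ((P.Ve u 0).map ((t : V →ₗ[K] V) + LinearMap.id)) := by
  have := P.fd
  have hD := P.isDecProj u
  have h0 : ∀ v, t (t v) = v := fun v => congrArg (fun g : V ≃ₗ[K] V => g v) ht
  have h1 : ∀ j, ∀ v ∈ P.Ve u j, t v ∈ P.Ve u (-j) := fun j v => map_mem_Ve_neg e
  set f := (t : V →ₗ[K] V) + LinearMap.id
  have hf : ∀ v, f v = t v + v := fun _ => rfl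
  have h2 : ∀ v ∈ P.Ve u 1, P.pr u 1 (f v) = v := fun v hv => by
    rw [hf, map_add, hD.ne _ _ (by decide) _ (h1 1 v hv), hD.self _ _ hv, zero_add]
  have h3 : Ut t = (P.Ve u 1).map f ⊔ (P.Ve u 0).map f := le_antisymm (by
    rintro _ ⟨v, rfl⟩
    rw [← P.sum_pr u v, map_add, map_add]
    refine add_mem (add_mem (Submodule.mem_sup_right ⟨_, P.pr_mem .., rfl⟩)
      (Submodule.mem_sup_left ⟨_, P.pr_mem .., rfl⟩)) (Submodule.mem_sup_left
        ⟨_, h1 _ _ (P.pr_mem u (-1) v), ?_⟩)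
    rw [hf, hf, h0, add_comm]) (sup_le LinearMap.map_le_range LinearMap.map_le_range)
  have h4 : (P.Ve u 1).map f ⊓ (P.Ve u 0).map f = ⊥ := eq_bot_iff.2 (by
    rintro _ ⟨⟨x, hx, rfl⟩, y, hy, e⟩
    rw [← h2 x hx, ← e, hf y, hD.ne _ 0 (by decide) _ (add_mem (h1 0 y hy) hy), map_zero]
    exact zero_mem _)
  have h5 := LinearMap.finrank_range_of_inj (f := f.domRestrict (P.Ve u 1)) fun a b e =>
    Subtype.ext ((h2 a a.2).symm.trans ((congrArg _ e).trans (h2 b b.2)))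
  have h6 := Submodule.finrank_sup_add_finrank_inf_eq ((P.Ve u 1).map f) ((P.Ve u 0).map f)
  rwa [h4, finrank_bot, add_zero, ← h3, ← LinearMap.range_domRestrict, h5] at h6

theorem Ind.eq_of_smul (hI : P.Ind g s l) {S : Submodule (ZMod 3) W} {U : Submodule K V}
    (hU : ∀ w ∈ S, ∀ v ∈ U, P.ρ w v ∈ U) (hS : ∀ w ∈ S, (∀ w' ∈ S, P.β w w' = 0) → w = 0)
    (hc : Nat.card S = finrank K U ^ 2) {c : K} (e : ∀ v ∈ U, g v = c • v) (hw : w ∈ S)
    (hw' : s w ∈ S) : s w = w ∧ l w = 0 := by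
  have := (P.sub S U hU hS hc).eq_of_sc_ρ (c := P.χ (l w)) (d := 1) (u := ⟨_, hw'⟩) (v := ⟨w, hw⟩)
    (LinearEquiv.ext fun v => Subtype.ext (g.injective (by
      have := hI.apply w v
      rw [e _ v.2, map_smul, smul_comm, ← e _ (U.smul_mem _ (hU _ hw' _ v.2))] at this
      rw [map_one, one_mul]
      exact this.symm)))
  exact ⟨congrArg Subtype.val this.1, P.χ_eq_one this.2⟩

theorem Ind.not_dvd (h4 : finrank (ZMod 3) W = 4) (hI : P.Ind t (ng W) l) (ht : t * t = 1) :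
    ¬ 3 ∣ finrank K (Ut t) := by
  have := P.fin
  have := P.fd
  obtain ⟨u, hu, hu0⟩ := (LinearMap.ker l).exists_mem_ne_zero_of_ne_bot
    (LinearMap.ker_ne_bot_of_finrank_lt (by simp [h4]))
  obtain ⟨y, hy⟩ := P.exists_β_eq_one hu0
  obtain ⟨w, hw, _, -, hw0⟩ := exists_W1 h4 hy
  have e : t * P.ρ u * t⁻¹ = P.ρ (-u) := by simpa [LinearMap.mem_ker.1 hu] using hI u
  have key : ∀ c : K, ¬ ∀ v ∈ P.Ve u 0, t v = c • v := fun c hc =>
    ne_zero_of_β hw0 (eq_zero_of_neg_eq (hI.eq_of_smul (fun _ hw _ hv => ρ_mem_Ve' hv (P.mem_W1.1 hw).1)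
      (P.W1_nondeg hy) (P.card_W1 hy 0) hc hw (neg_mem hw)).1)
  have h1 := fun j => P.three_mul_finrank_Ve hu0 j
  rw [P.finrank_eq (m := 2) h4] at h1
  have h2 : (P.Ve u 0).map ((t : V →ₗ[K] V) + LinearMap.id) ≤ P.Ve u 0 := by
    rintro _ ⟨v, hv, rfl⟩
    exact add_mem (map_mem_Ve_neg e hv) hv
  have h3 := Submodule.finrank_mono h2
  have h5 := h1 0
  have h6 := h1 1
  rw [finrank_Ut ht e]
  intro h7
  by_cases h8 : finrank K ((P.Ve u 0).map ((t : V →ₗ[K] V) + LinearMap.id)) = 0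
  · refine key (-1) fun v hv => ?_
    rw [neg_one_smul, eq_neg_iff_add_eq_zero]
    exact (Submodule.finrank_eq_zero.1 h8).le ⟨v, hv, rfl⟩
  · refine key 1 fun v hv => ?_
    obtain ⟨x, -, rfl⟩ := (Submodule.eq_of_le_of_finrank_eq h2 (by omega)).ge hv
    change t (t x + x) = _ • (t x + x)
    rw [map_add, ← LinearEquiv.mul_apply, ht, one_smul, add_comm]; rfl

theorem Ind.commute_of_inv (hI : P.Ind t s l) (ht : t * t = 1) (hw : s w = w) :
    Commute t (P.ρ w) := by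
  have := ((hI.mul hI).of_commute (u := w) (ht ▸ Commute.one_left _)).2
  rw [LinearMap.add_apply, LinearMap.comp_apply, LinearEquiv.coe_coe, hw, add_self3] at this
  exact hI.commute hw (neg_eq_zero.1 this)

theorem exists_fix_pair (hs : s ∈ P.SpG) (h2 : s * s = 1) (h : s ≠ ng W) :
    ∃ a b, s a = a ∧ s b = b ∧ P.β a b = 1 := by
  have h0 : ∀ v, s (s v + v) = s v + v := fun v => by
    rw [map_add, ← LinearEquiv.mul_apply, h2, add_comm]; rfl
  obtain ⟨x, hx⟩ : ∃ x, s x + x ≠ 0 := by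
    by_contra! hc
    exact h (LinearEquiv.ext fun x => eq_neg_of_add_eq_zero_left (hc x))
  obtain ⟨y, hy⟩ := P.exists_β_eq_one hx
  refine ⟨_, -(s y + y), h0 x, by rw [map_neg, h0], ?_⟩
  have := hs (s x + x) y
  rw [h0] at this
  rw [map_neg, map_add, this, hy]; rfl

theorem Ind.dvd (hI : P.Ind t s l) (ht : t * t = 1) (h : s ≠ ng W) : 3 ∣ finrank K (Ut t) := by
  obtain ⟨a, b, ha, hb, hab⟩ := exists_fix_pair hI.mem_SpG ((hI.mul hI).eq_one (ht ▸ one_mem _)) h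
  exact P.three_dvd_finrank hab (fun _ => map_mem_Ut (hI.commute_of_inv ht ha).symm)
    fun _ => map_mem_Ut (hI.commute_of_inv ht hb).symm

/-! ### the quotient by the scalars -/

variable (P X) in
/-- the image of the normaliser -/
def Mb : Subgroup (X ⧸ Pauli.Zs X) := (P.N.subgroupOf X).map (QuotientGroup.mk' _)

theorem mem_Mb {x : X} : (x : X ⧸ Pauli.Zs X) ∈ P.Mb X ↔ x.1 ∈ P.N :=
  ⟨fun ⟨y, hy, e⟩ => by
    obtain ⟨c, hc⟩ := (Pauli.mk_eq_iff X).1 e.symm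
    exact hc ▸ mul_mem (P.sc_mem_N c) hy, fun h => ⟨x, h, rfl⟩⟩

/-- the image of `ρ u` -/
def H1.eb (h : P.H1 X) : Multiplicative W →* X ⧸ Pauli.Zs X :=
  MonoidHom.mk' (fun u => (⟨P.ρ u.toAdd, h.ρ _⟩ : X)) fun _ _ =>
    ((Pauli.mk_eq_iff X (g := ⟨_, h.ρ _⟩ * ⟨_, h.ρ _⟩)).2 ⟨_, P.mul' _ _⟩).symm

/-- the image of `ρ S` -/
def H1.Eb (h : P.H1 X) (S : Submodule (ZMod 3) W) : Subgroup (X ⧸ Pauli.Zs X) :=
  S.toAddSubgroup.toSubgroup.map h.eb

theorem H1.mem_Eb (h : P.H1 X) {S : Submodule (ZMod 3) W} {x : X ⧸ Pauli.Zs X} :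
    x ∈ h.Eb S ↔ ∃ w ∈ S, ((⟨P.ρ w, h.ρ w⟩ : X) : X ⧸ Pauli.Zs X) = x := Iff.rfl

theorem H1.Eb_pGroup (h : P.H1 X) (S : Submodule (ZMod 3) W) : IsPGroup 3 (h.Eb S) := by
  rintro ⟨_, w, hw, rfl⟩
  exact ⟨1, Subtype.ext (congrArg (QuotientGroup.mk' _) (Subtype.ext (P.ρ_cube _) :
    (⟨P.ρ w.toAdd, h.ρ _⟩ : X) ^ 3 = 1))⟩

theorem H1.Eb_comm (h : P.H1 X) (S : Submodule (ZMod 3) W) : IsMulCommutative (h.Eb S) :=
  Subgroup.map_isMulCommutative _ _

theorem H1.Eb_not_cyclic (h : P.H1 X) {S : Submodule (ZMod 3) W} (ha : a ∈ S) (hb : b ∈ S)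
    (hab : P.β a b = 1) : ¬ IsCyclic (h.Eb S) := by
  rintro ⟨⟨_, w, hw, rfl⟩, H⟩
  have key : ∀ x ∈ S, ∃ m : ℤ, x = m • w.toAdd := fun x hx => by
    obtain ⟨m, e⟩ := H ⟨_, .ofAdd x, hx, rfl⟩
    obtain ⟨c, hc⟩ := (Pauli.mk_eq_iff X).1 ((map_zpow h.eb w m).trans (congrArg Subtype.val e))
    exact ⟨m, (P.eq_of_sc_ρ (hc.symm.trans (by rw [map_one, one_mul]; rfl : _ = C6.sc V 1 * _))).1⟩
  obtain ⟨m, rfl⟩ := key a ha
  obtain ⟨n, rfl⟩ := key b hb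
  simp [P.alt] at hab

variable (P X) in
/-- the endgame in dimension three, for the groups induced on the image of `t + 1` -/
def Base : Prop := ∀ t ∈ X, t * t = 1 → ∀ (S : Submodule (ZMod 3) W) hU hS hc, (∀ w ∈ S, Commute t (P.ρ w)) →
  finrank (ZMod 3) S = 2 → ∀ Y : Subgroup (Ut t ≃ₗ[K] Ut t),
    (∀ y ∈ Y, ∃ g ∈ X, Commute g t ∧ ∀ v, (y v : V) = g v) → (P.sub S (Ut t) hU hS hc).H1 Y →
    (P.sub S (Ut t) hU hS hc).CentN Y → Y ≤ (P.sub S (Ut t) hU hS hc).N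

theorem HT.mem_N [Finite X] (hB : P.Base X) (hC : P.CentN X) (hH : P.H1 X)
    (h4 : finrank (ZMod 3) W = 4) (hT : HT h t) (hX : h ∈ X) (hN : h ∈ P.N) (hx : x ∈ X)
    (hc : Commute x h) : x ∈ P.N := by
  have := P.fd
  obtain ⟨σ, l, hI⟩ := exists_ind hN
  obtain ⟨⟨c, hth⟩, ht, hrk, d, hd⟩ := hT
  have hct : ∀ {x}, Commute x h → Commute x t := fun hx =>
    hth ▸ (commute_sc c _).mul_right (hx.mul_right hx)
  have htX : t ∈ X := hth ▸ mul_mem (hH.sc c) (mul_mem hX hX)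
  obtain ⟨l', hIt⟩ : ∃ l', P.Ind t (σ * σ) l' := ⟨_, hth ▸ (hI.mul hI).sc_mul c⟩
  generalize hθ : σ * σ = θ at hIt
  have h1 : θ * θ = 1 := (hIt.mul hIt).eq_one (ht ▸ one_mem _)
  obtain ⟨a, b, ha, hb, hab⟩ := exists_fix_pair hIt.mem_SpG h1 fun e =>
    (e ▸ hIt).not_dvd h4 ht (hrk ▸ dvd_rfl)
  obtain ⟨p, q, hp, hq, hpq⟩ := exists_fix_pair (mul_mem hIt.mem_SpG ng_mem_SpG)
    (by rw [mul_assoc, ← mul_assoc (ng W), ← ng_comm, mul_assoc, ng_mul_ng, mul_one, h1]) fun e => by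
      obtain ⟨ε, rfl⟩ := P.schur' fun u => hIt.commute_of_inv ht (by rw [mul_eq_right.1 e]; rfl)
      have e1 : Ut (C6.sc V ε) = LinearMap.range (((ε : K) + 1) • LinearMap.id) := by
        rw [add_smul, one_smul]; rfl
      by_cases h0 : (ε : K) + 1 = 0
      · rw [e1, h0, zero_smul, LinearMap.range_zero, finrank_bot] at hrk
        omega
      · rw [e1, LinearMap.range_smul _ _ h0, LinearMap.range_id, finrank_top,
          P.finrank_eq (m := 2) h4] at hrk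
        omega
  replace hp : θ p = -p := by simpa [neg_eq_iff_eq_neg] using hp
  replace hq : θ q = -q := by simpa [neg_eq_iff_eq_neg] using hq
  have orth : ∀ {w x}, θ w = w → θ x = -x → P.β w x = 0 := fun {w x} hw hx => by
    have := hIt.β w x
    rw [hw, hx, map_neg] at this
    exact eq_zero_of_neg_eq this
  have mem1 : ∀ {w}, θ w = w → w ∈ P.W1 p q := fun hw =>
    ⟨P.β_comm0 (orth hw hp), P.β_comm0 (orth hw hq)⟩
  have mem2 : ∀ w ∈ P.W1 p q, θ w = w := fun w hw => by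
    have := congrArg Subtype.val (coord2 (P := P.res hpq 0) (finrank_W1_two h4 hpq)
      (a := ⟨a, mem1 ha⟩) (b := ⟨b, mem1 hb⟩) hab ⟨w, hw⟩)
    simp only [Submodule.coe_add, Submodule.coe_smul] at this
    rw [this, map_add, map_smul, map_smul, ha, hb]
  have hcomm : ∀ {x s l}, P.Ind x s l → Commute x t → ∀ w, θ (s w) = s (θ w) :=
    fun e hx w => (commute_apply (e.comm hIt hx) w).symm
  have hSt : ∀ w ∈ P.W1 p q, Commute t (P.ρ w) := fun w hw => hIt.commute_of_inv ht (mem2 w hw)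
  have hU : ∀ w ∈ P.W1 p q, ∀ v ∈ Ut t, P.ρ w v ∈ Ut t := fun w hw v => map_mem_Ut (hSt w hw).symm
  have hcard : Nat.card (P.W1 p q) = finrank K (Ut t) ^ 2 := by
    rw [P.card_W1 hpq 0, hrk, show finrank K (P.Ve p 0) = 3 by
      have := P.three_mul_finrank_Ve (ne_zero_of_β hpq) 0
      rw [P.finrank_eq (m := 2) h4] at this
      omega]
  have hfix : ∀ {x s l} {c : K}, P.Ind x s l → Commute x t → (∀ v ∈ Ut t, x v = c • v) →
      ∀ w ∈ P.W1 p q, s w = w ∧ l w = 0 := fun e hx e' w hw =>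
    e.eq_of_smul hU (P.W1_nondeg hpq) hcard e' hw (mem1 (by rw [hcomm e hx, mem2 w hw]))
  have hSh : ∀ w ∈ P.W1 p q, Commute (P.ρ w) h := fun w hw =>
    (hI.commute (hfix hI (hct rfl) hd w hw).1 (hfix hI (hct rfl) hd w hw).2).symm
  let H : Subgroup X :=
    { carrier := {x | Commute x.1 h ∧ ∃ c : K, ∀ v ∈ Ut t, x.1 v = c • v}
      one_mem' := ⟨Commute.one_left _, 1, by simp⟩
      mul_mem' := by
        rintro x y ⟨h1, c, e⟩ ⟨h2, c', e'⟩
        exact ⟨h1.mul_left h2, c' * c, fun v hv => by simp [e v hv, e' v hv, mul_smul]⟩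
      inv_mem' := by
        rintro x ⟨h1, c, e⟩
        refine ⟨h1.inv_left, c⁻¹, fun v hv => x.1.injective ?_⟩
        by_cases h0 : c = 0
        · simp [show v = 0 by simpa [h0] using e v hv]
        · simp [e v hv, h0] }
  have hK : H.map (QuotientGroup.mk' _) ≤ P.Mb X := by
    refine le_of_gen (hH.Eb_pGroup _) (hH.Eb_comm _) (hH.Eb_not_cyclic (mem1 ha) (mem1 hb) hab)
      ?_ ?_ ?_
    · intro _ hw'
      obtain ⟨w, hw, rfl⟩ := hH.mem_Eb.1 hw'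
      refine Subgroup.mem_normalizer_fintype ?_
      rintro _ ⟨x, ⟨h1, c, e⟩, rfl⟩
      refine ⟨⟨_, hH.ρ w⟩ * x * ⟨_, hH.ρ w⟩⁻¹, ⟨((hSh _ hw).mul_left h1).mul_left
        (hSh _ hw).inv_left, c, fun v hv => ?_⟩, rfl⟩
      change P.ρ _ (x.1 ((P.ρ _)⁻¹ v)) = _
      rw [e _ (map_mem_Ut (hSt _ hw).symm.inv_left hv), map_smul, apply_inv_apply]
    · rintro _ ⟨w, hw, rfl⟩ h0 _ ⟨⟨x, -, rfl⟩, e⟩
      obtain ⟨c, e⟩ := (Pauli.mk_eq_iff X (g := x * ⟨_, hH.ρ w.toAdd⟩ * x⁻¹)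
        (h := ⟨_, hH.ρ w.toAdd⟩)).1
        (mul_inv_eq_iff_eq_mul.2 (Subgroup.mem_centralizer_singleton_iff.1 e))
      exact mem_Mb.2 (hC.of_mem_R hH x.2 (fun e => h0 (by rw [show w = 1 from e, map_one])) ⟨c, _, e⟩)
    · rintro _ ⟨k, ⟨hk, c, e⟩, rfl⟩ h3 h5
      have h6 : ∀ w ∈ P.W1 p q, ∃ c, k.1 * P.ρ w * k.1⁻¹ = C6.sc V c * P.ρ w := fun w hw =>
        (Pauli.mk_eq_iff X (g := k * ⟨_, hH.ρ w⟩ * k⁻¹)).1
          (mul_inv_eq_iff_eq_mul.2 (h5 _ ⟨.ofAdd w, hw, rfl⟩).symm)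
      obtain ⟨s, l, hs⟩ := exists_ind (hC.of_mem_R hH k.2 (ne_zero_of_β hab)
        ((h6 a (mem1 ha)).imp fun _ e => ⟨_, e⟩))
      obtain ⟨c', h7⟩ := (Pauli.mk_eq_iff X (g := k ^ 3) (h := 1)).1 h3
      have h8 := sub1_cube (hs.cube (c := c') (by simpa using h7)) p
      have h9 : ∀ w, θ w = -w → θ (sub1 s w) = -sub1 s w := fun w hw => by
        rw [sub1_apply, map_sub, hcomm hs (hct hk), hw, map_neg]; abel
      obtain ⟨v, hv, hv0, hv1⟩ : ∃ v, θ v = -v ∧ v ≠ 0 ∧ s v = v := by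
        by_cases e1 : sub1 s p = 0
        · exact ⟨p, hp, ne_zero_of_β hpq, sub_eq_zero.1 e1⟩
        by_cases e2 : sub1 s (sub1 s p) = 0
        · exact ⟨_, h9 p hp, e1, sub_eq_zero.1 e2⟩
        · exact ⟨_, h9 _ (h9 p hp), e2, sub_eq_zero.1 h8⟩
      have mem3 : ∀ {w}, θ w = -w → w ∈ P.W1 a b := fun hw => ⟨orth ha hw, orth hb hw⟩
      have hv2 : θ (σ v) = -σ v := by rw [hcomm hI (hct rfl), hv, map_neg]
      have hv3 : s (σ v) = σ v := by rw [commute_apply (hs.comm hI hk), hv1]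
      have hv4 : P.β v (σ v) ≠ 0 := fun e0 => by
        obtain ⟨y, hy⟩ := (P.res hab 0).exists_β_eq_one (u := ⟨v, mem3 hv⟩)
          fun e => hv0 (congrArg Subtype.val e)
        have e1 := congrArg Subtype.val (coord2 (P := P.res hab 0) (finrank_W1_two h4 hab) hy
          ⟨_, mem3 hv2⟩)
        change σ v = -P.β y (σ v) • v + P.β v (σ v) • y.1 at e1
        rw [e0, zero_smul, add_zero] at e1
        generalize -P.β y (σ v) = m at e1
        rw [← hθ, LinearEquiv.mul_apply, e1, map_smul, e1, smul_smul, eq_neg_iff_add_eq_zero,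
          ← one_smul (ZMod 3) v, smul_smul, mul_one, ← add_smul, smul_eq_zero] at hv
        exact (by decide : ∀ m : ZMod 3, m * m + 1 ≠ 0) m (hv.resolve_right hv0)
      obtain rfl : s = 1 := LinearEquiv.ext fun w => by
        have e0 : ∀ x, s x = x → P.β x (s w - w) = 0 := fun x hx => by
          rw [map_sub, ← hs.β x w, hx, sub_self]
        have e1 := congrArg Subtype.val (coord2 (P := P.res hab 0) (finrank_W1_two h4 hab)
          (a := ⟨v, mem3 hv⟩) (b := P.β v (σ v) • ⟨_, mem3 hv2⟩) (by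
            change P.β v (P.β v (σ v) • σ v) = 1
            rw [map_smul, smul_eq_mul, z3_mul_self hv4])
          ⟨s w - w, e0 a (hfix hs (hct hk) e a (mem1 ha)).1, e0 b (hfix hs (hct hk) e b (mem1 hb)).1⟩)
        change _ = -P.β (P.β v (σ v) • σ v) (s w - w) • v + P.β v (s w - w) • _ at e1
        simpa [e0 v hv1, e0 _ hv3, sub_eq_zero] using e1
      obtain ⟨c', w, e1, e2⟩ := hs.exists_eq
      have hw : w ∈ P.W1 p q := mem1 (hIt.eq (c := 1) (by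
        have := (hct hk).symm.eq
        rw [e1, ← mul_assoc, sc_comm, mul_assoc, mul_assoc, mul_right_inj] at this
        rw [this]; simp)).1
      obtain rfl : w = 0 := P.W1_nondeg hpq w hw fun w' hw' => by
        rw [e2, (hfix hs (hct hk) e w' hw').2]
      exact (Pauli.mk_eq_iff X (h := 1)).2 ⟨c', by rw [e1, P.zero]; rfl⟩
  have key : ∀ x ∈ X, Commute x h → ∀ w ∈ P.W1 p q, w ≠ 0 → ∀ w' ∈ P.W1 p q, ∀ c : K,
      (∀ v ∈ Ut t, x (P.ρ w v) = c • P.ρ w' (x v)) → x ∈ P.N := fun x hx hc w hw h0 w' hw' c e => by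
    have := mem_Mb.1 (hK ⟨⟨x * P.ρ w * x⁻¹ * (P.ρ w')⁻¹, mul_mem (mul_mem (mul_mem hx (hH.ρ w))
      (inv_mem hx)) (inv_mem (hH.ρ w'))⟩, ⟨((hc.mul_left (hSh w hw)).mul_left hc.inv_left).mul_left
        (hSh w' hw').inv_left, c, fun v hv => by
          simp only [LinearEquiv.mul_apply]
          rw [e _ (map_mem_Ut (hct hc).inv_left (map_mem_Ut (hSt _ hw').symm.inv_left hv)),
            apply_inv_apply, apply_inv_apply]⟩, rfl⟩)
    exact hC.of_mem_N hH h4 hx h0 ((P.N.mul_mem_cancel_right (inv_mem (P.ρ_mem_N w'))).1 this)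
  have hC' : ∀ g ∈ X ⊓ Subgroup.centralizer {h}, Commute g h := fun g hg =>
    Subgroup.mem_centralizer_singleton_iff.1 hg.2
  have hY := hB t htX ht _ hU (P.W1_nondeg hpq) hcard hSt (finrank_W1_two h4 hpq)
    (rsH _ _ fun g hg v => map_mem_Ut (hct (hC' g hg))).range
    (by rintro _ ⟨g, rfl⟩; exact ⟨g, g.2.1, hct (hC' g g.2), fun _ => rfl⟩)
    (sub_H1 _ (fun c => ⟨hH.sc c, Subgroup.mem_centralizer_singleton_iff.2 (sc_comm c h).symm⟩)
      (fun w hw => ⟨hH.ρ w, Subgroup.mem_centralizer_singleton_iff.2 (hSh w hw)⟩)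
      fun w hw k => ⟨hH.2 w k, Subgroup.mem_centralizer_singleton_iff.2
        (commute_τ (hSh w hw).symm k).symm⟩) (by
      rintro w h0 _ ⟨g, rfl⟩ e
      obtain ⟨s, l, hs⟩ := exists_ind (key g g.2.1 (hC' g g.2) w w.2 (by simpa using h0) w w.2 1
        fun v hv => by rw [one_smul]; exact congrArg Subtype.val (commute_apply e ⟨v, hv⟩))
      exact mem_N_of_forall _ fun u => ⟨P.χ (l u), ⟨s u, mem1 (by
        rw [hcomm hs (hct (hC' g g.2)), mem2 u u.2])⟩, mul_inv_eq_iff_eq_mul.2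
          (LinearEquiv.ext fun v => Subtype.ext (hs.apply u v))⟩)
  obtain ⟨s, l, hs⟩ := exists_ind (hY ⟨⟨x, hx, Subgroup.mem_centralizer_singleton_iff.2 hc⟩, rfl⟩)
  exact key x hx hc a (mem1 ha) (ne_zero_of_β hab) _ (s ⟨a, mem1 ha⟩).2 _ fun v hv =>
    congrArg Subtype.val (hs.apply ⟨a, mem1 ha⟩ ⟨v, hv⟩)

end Pau

end Cfsg.Lib.Class.C3
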