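import Cfsg.Agent.Class.C3.End2
import Cfsg.Agent.Block.ZStarElt

/-!
# The endgame, third part: the application of the Z*-theorem
-/

namespace Cfsg.Lib.Class.C3

open Module C6

variable {K V W : Type*} [Field K] [AddCommGroup V] [Module K V] [AddCommGroup W]
  [Module (ZMod 3) W]

theorem isPGroup_zpowers {G : Type*} [Group G] {p k : ℕ} {x : G} (h : x ^ p ^ k = 1) :
    IsPGroup p (Subgroup.zpowers x) := fun ⟨_, m, e⟩ =>
  ⟨k, Subtype.ext (by
    subst e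
    change (x ^ m) ^ p ^ k = 1
    rw [← zpow_natCast, zpow_comm, zpow_natCast, h, one_zpow])⟩

namespace Pau

variable {P : Pau K V W} {u w y a b : W} {i j k : ZMod 3} {v : V} {g h t x : V ≃ₗ[K] V}
  {s : W ≃ₗ[ZMod 3] W} {l : W →ₗ[ZMod 3] ZMod 3} {X : Subgroup (V ≃ₗ[K] V)}

theorem exists_smul_on {S : Submodule (ZMod 3) W} {U : Submodule K V}
    (hU : ∀ w ∈ S, ∀ v ∈ U, P.ρ w v ∈ U) (hS : ∀ w ∈ S, (∀ w' ∈ S, P.β w w' = 0) → w = 0)
    (hc : Nat.card S = finrank K U ^ 2) (hg : ∀ v ∈ U, g v ∈ U)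
    (h : ∀ w ∈ S, Commute g (P.ρ w)) : ∃ c : K, ∀ v ∈ U, g v = c • v :=
  ((P.sub S U hU hS hc).schur ((g : V →ₗ[K] V).restrict hg) fun w v =>
    Subtype.ext (commute_apply (h w w.2) v)).imp fun _ e v hv => congrArg Subtype.val (e ⟨v, hv⟩)

theorem ext_W1 (hab : P.β a b = 1) {s t : W ≃ₗ[ZMod 3] W} (h1 : s a = t a) (h2 : s b = t b)
    (h3 : ∀ w ∈ P.W1 a b, s w = t w) : s = t := LinearEquiv.ext fun w => by
  simpa [h1, h2] using h3 _ (P.proj_mem_W1 hab w)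

variable (P a b) in
/-- an element of order four of the symplectic group -/
def jj : W ≃ₗ[ZMod 3] W := P.tv a 1 * P.tv b (-1)

theorem jj_fix (hw : w ∈ P.W1 a b) : P.jj a b w = w := by
  simp [jj, tv_apply, P.β_comm0 hw.1, P.β_comm0 hw.2]

theorem jj_jj (hab : P.β a b = 1) : P.jj a b (P.jj a b a) = -a :=
  tv_tv_sq (by simp [hab]) (by decide) (.inl rfl)

theorem jj_jj' (hab : P.β a b = 1) : P.jj a b (P.jj a b b) = -b :=
  tv_tv_sq (by simp [hab]) (by decide) (.inr rfl)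

theorem ind_jj (a b : W) : P.Ind (P.τ a 1 * P.τ b (-1)) (P.jj a b) 0 :=
  ((P.ind_τ a 1).mul (P.ind_τ b (-1))).congr (fun _ => rfl) (by simp)

theorem Ind.mul0 {s' : W ≃ₗ[ZMod 3] W} (h1 : P.Ind g s 0) (h2 : P.Ind x s' 0) :
    P.Ind (g * x) (s * s') 0 := (h1.mul h2).congr (fun _ => rfl) (by simp)

variable (h4 : finrank (ZMod 3) W = 4)
include h4

theorem Ind.exists_inv (h : P.Ind g s 0) (hs : s * s = 1) :
    ∃ d : Kˣ, sc V d * g * (sc V d * g) = 1 := by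
  obtain ⟨c, hc⟩ := P.schur' fun u => (h.mul0 h).commute (u := u) (by rw [hs]; rfl) rfl
  exact P.exists_sc_sq (by rw [P.finrank_eq (m := 2) h4]; decide) hc

theorem exists_HT (hab : P.β a b = 1) : ∃ t, HT (P.τ a 1 * P.τ b (-1)) t := by
  have := P.fd
  have hI := ind_jj (P := P) a b
  generalize P.τ a 1 * P.τ b (-1) = h at hI
  have h3 : ∀ j, finrank K (P.Ve a j) = 3 := fun j => by
    have := P.three_mul_finrank_Ve (ne_zero_of_β hab) j
    rw [P.finrank_eq (m := 2) h4] at this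
    omega
  obtain ⟨d, hd⟩ := (hI.mul0 hI).exists_inv h4 (ext_W1 hab (by simp [jj_jj hab])
    (by simp [jj_jj' hab]) fun w hw => by simp [jj_fix hw])
  have key : ∀ d, sc V d * (h * h) * P.ρ a * (sc V d * (h * h))⁻¹ = P.ρ (-a) := fun d => by
    simpa [jj_jj hab] using (hI.mul0 hI).sc_mul d a
  have hc : ∀ w ∈ P.W1 a b, Commute h (P.ρ w) := fun w hw => hI.commute (jj_fix hw) rfl
  have hc' : ∀ d, ∀ w ∈ P.W1 a b, Commute (sc V d * (h * h)) (P.ρ w) := fun d w hw =>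
    (commute_sc d _).symm.mul_left ((hc w hw).mul_left (hc w hw))
  obtain ⟨ε, hε⟩ := exists_smul_on (fun _ hw _ hv => ρ_mem_Ve' hv (P.mem_W1.1 hw).1) (P.W1_nondeg hab)
    (P.card_W1 hab 0) (fun v hv => map_mem_Ve_neg (key d) hv) (hc' d)
  obtain ⟨v, hv, hv0⟩ := exists_mem_Ve (P := P) (ne_zero_of_β hab) 0
  have h5 : -ε * -ε = 1 := smul_left_injective K hv0 (by
    have := congrArg (fun g : V ≃ₗ[K] V => g v) hd
    generalize sc V d * (h * h) = g at this hε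
    simpa [hε v hv, smul_smul] using this)
  let e := Units.mkOfMulEqOne _ _ h5
  have h6 : sc V (e * d) * (h * h) * (sc V (e * d) * (h * h)) = 1 := by
    rw [map_mul, mul_assoc (sc V e), sc_mul_sc_mul, hd, show e * e = 1 from Units.ext h5, map_one,
      one_mul]
  have h7 : finrank K (Ut (sc V (e * d) * (h * h))) = 3 := by
    rw [finrank_Ut h6 (key _), h3, add_eq_left, Submodule.finrank_eq_zero, eq_bot_iff]
    rintro _ ⟨v, hv, rfl⟩
    rw [map_mul, mul_assoc]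
    change (-ε) • (sc V d * (h * h)) v + v = 0
    rw [hε v hv, smul_smul, show -ε * ε = -1 by linear_combination -h5, neg_one_smul, neg_add_cancel]
  exact ⟨_, ⟨_, rfl⟩, h6, h7, exists_smul_on (fun w hw v => map_mem_Ut (hc' _ w hw).symm)
    (P.W1_nondeg hab) (by rw [P.card_W1 hab 0, h3, h7])
    (fun v => map_mem_Ut ((commute_sc _ _).mul_right ((Commute.refl h).mul_right rfl))) hc⟩

theorem H1.exists_z (hH : P.H1 X) : ∃ z ∈ X, P.Ind z (ng W) 0 ∧ z * z = 1 := by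
  have : Nontrivial W := Module.nontrivial_of_finrank_pos (R := ZMod 3) (by omega)
  obtain ⟨a, b, hab⟩ := P.exists_hyp
  obtain ⟨c, hc, d, hd, hcd⟩ := exists_W1 h4 hab
  have ha : a ∈ P.W1 c d := ⟨P.β_comm0 hc.1, P.β_comm0 hd.1⟩
  have hb : b ∈ P.W1 c d := ⟨P.β_comm0 hc.2, P.β_comm0 hd.2⟩
  have hI := ((ind_jj (P := P) a b).mul0 (ind_jj a b)).mul0 ((ind_jj c d).mul0 (ind_jj c d))
  rw [ext_W1 (s := P.jj a b * P.jj a b * (P.jj c d * P.jj c d)) (t := ng W) hab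
    (by simp [jj_jj hab, jj_fix ha]) (by simp [jj_jj' hab, jj_fix hb]) fun w hw => by
      have := congrArg Subtype.val (coord2 (P := P.res hab 0) (finrank_W1_two h4 hab)
        (a := ⟨c, hc⟩) (b := ⟨d, hd⟩) hcd ⟨w, hw⟩)
      simp only [Submodule.coe_add, Submodule.coe_smul] at this
      rw [this]
      simp [jj_jj hcd, jj_jj' hcd, jj_fix hc, jj_fix hd, -neg_add_rev, neg_add]] at hI
  obtain ⟨e, he⟩ := hI.exists_inv h4 ng_mul_ng
  have := fun a b => mul_mem (hH.2 a 1) (hH.2 b (-1))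
  exact ⟨_, mul_mem (hH.sc e) (mul_mem (mul_mem (this ..) (this ..)) (mul_mem (this ..) (this ..))),
    hI.sc_mul e, he⟩

theorem exists_sylow [Finite X] (hB : P.Base X) (hC : P.CentN X) (hH : P.H1 X) {z : X}
    (hzI : P.Ind z (ng W) 0) (hzz : z * z = 1) : ∃ T : Sylow 2 (X ⧸ Pauli.Zs X),
      (z : X ⧸ Pauli.Zs X) ∈ (T : Subgroup _) ∧ (T : Subgroup _) ≤ P.Mb X := by
  have : Nontrivial W := Module.nontrivial_of_finrank_pos (R := ZMod 3) (by omega)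
  obtain ⟨a, b, hab⟩ := P.exists_hyp
  obtain ⟨c, hc, _, -, hc0⟩ := exists_W1 h4 hab
  obtain ⟨t, hT⟩ := exists_HT h4 hab
  have hzh : Commute z.1 (P.τ a 1 * P.τ b (-1)) := by
    have : ∀ a k, Commute z.1 (P.τ a k) := fun a k => mul_inv_eq_iff_eq_mul.1
      ((conj_τ0 (b := -a) (by simpa using hzI a) k).trans (τ_neg a k))
    exact (this ..).mul_right (this ..)
  have hI := ind_jj (P := P) a b
  have hX := mul_mem (hH.2 a 1) (hH.2 b (-1))
  generalize P.τ a 1 * P.τ b (-1) = h at hI hX hT hzh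
  lift h to X using hX
  obtain ⟨d, hd⟩ := hT.sq
  let π := QuotientGroup.mk' (Pauli.Zs X)
  have h1 : π h ^ 2 ^ 2 = 1 := (Pauli.mk_eq_iff X (g := h ^ 2 ^ 2) (h := 1)).2
    ⟨(d * d)⁻¹, by
      have := hT.inv
      rw [hd, sc_mul_sc_mul] at this
      rw [map_inv, eq_inv_mul_iff_mul_eq]
      simpa [pow_succ, mul_assoc] using this⟩
  have h2 : π z ^ 2 ^ 1 = 1 := by rw [pow_one, sq, ← map_mul, hzz, map_one]
  have h3 : Commute (π h) (π z) := (Commute.map (Subtype.ext hzh : Commute z h) π).symm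
  obtain ⟨T, hT'⟩ := ((isPGroup_zpowers h2).to_sup_of_normal_right'
    (isPGroup_zpowers h1) ((Subgroup.zpowers_le.2 fun _ ⟨k, e⟩ => by
        subst e
        exact (h3.zpow_left k).eq).trans (Subgroup.centralizer_le_normalizer _))).exists_le_sylow
  refine ⟨T, hT' (Subgroup.mem_sup_left (Subgroup.mem_zpowers _)), pGroup_le_of_conj T.isPGroup'
    (hT' (Subgroup.mem_sup_right (Subgroup.mem_zpowers _))) (mem_Mb.2 hI.mem_N) fun g _ hg => ?_⟩
  obtain ⟨g, rfl⟩ := QuotientGroup.mk_surjective g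
  exact mem_Mb.2 (hC.of_mem_N hH h4 g.2 (ne_zero_of_β hc0) (HT.mem_N hB hC hH h4 (hT.conj g)
    (g * h * g⁻¹).2 ((mem_Mb (x := g * h * g⁻¹)).1 hg) (g * ⟨_, hH.ρ c⟩ * g⁻¹).2
    ((Commute.conj_iff _).2 (hI.commute (jj_fix hc) rfl).symm)))

theorem zstar [Finite X] (hB : P.Base X) (hC : P.CentN X) (hH : P.H1 X) :
    hH.Eb ⊤ ≤ oddCore _ := by
  obtain ⟨z, hz, hzI, hzz⟩ := hH.exists_z h4
  lift z to X using hz
  have h2 : z * z = 1 := Subtype.ext hzz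
  obtain ⟨T, hzT, h3⟩ := exists_sylow h4 hB hC hH hzI h2
  have h5 := Block.Princ.zstar_elt T hzT fun g hg => by
    obtain ⟨g, rfl⟩ := QuotientGroup.mk_surjective g
    obtain ⟨s, l, hs⟩ := exists_ind ((mem_Mb (x := g * z * g⁻¹)).1 (h3 hg))
    obtain rfl : s = ng W := by_contra fun e => hzI.not_dvd h4 hzz (finrank_Ut_conj g.1 z ▸
      hs.dvd (by change g.1 * z * g.1⁻¹ * (g.1 * z * g.1⁻¹) = 1; simp [conj_mul, hzz]) e)
    have h7 := hs.mul hzI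
    rw [ng_mul_ng] at h7
    obtain ⟨c, w, e⟩ := h7.mem_R
    obtain ⟨k, hk⟩ := T.isPGroup' ⟨_, mul_mem hg hzT⟩
    have h6 := pow_gcd_eq_one.2 ⟨(Pauli.mk_eq_iff X (g := (g * z * g⁻¹ * z) ^ 3)
      (h := 1)).2 ⟨c ^ 3, (congrArg (· ^ 3) e).trans (by rw [sc_mul_pow, ρ_cube]; rfl)⟩,
      congrArg Subtype.val hk⟩
    rw [Nat.Coprime.pow_right k (by decide), pow_one] at h6
    exact mul_right_cancel (h6.trans (congrArg (QuotientGroup.mk' _) h2).symm)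
  intro _ hw
  obtain ⟨w, -, rfl⟩ := hH.mem_Eb.1 hw
  rw [show (⟨_, hH.ρ w⟩ : X) = ⟨_, hH.ρ (-w)⟩ * z * ⟨_, hH.ρ (-w)⟩⁻¹ * z⁻¹ from Subtype.ext (by
    change _ = P.ρ (-w) * z * (P.ρ (-w))⁻¹ * z.1⁻¹
    rw [ρ_inv, neg_neg, mul_assoc, mul_assoc, ← mul_assoc z.1, hzI w]
    simp [ρ_mul_self])]
  exact h5 (⟨_, hH.ρ (-w)⟩ : X)

omit h4 in
theorem eq_one_of_odd (hs : s ∈ P.SpG) {m : ℕ} (h1 : s ^ (2 * m + 1) = 1)
    (h2 : ∀ c, (s * P.tv c 1 * s⁻¹ * (P.tv c 1)⁻¹) ^ (2 * m + 1) = 1) : s = 1 := by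
  have h7 : s * s = 1 := by_contra fun h7 => by
    obtain ⟨c, hc⟩ := exists_β_ne hs h7
    have h8 := h2 c
    have h9 := tv_tv_sq hc (k := 1) (by decide) (.inr rfl)
    rw [conj_tv hs, tv_inv] at h8
    generalize P.tv (s c) 1 * P.tv c (-1) = j at h8 h9
    have h10 : ∀ n, ((j * j) ^ n) c = (-1 : ZMod 3) ^ n • c := fun n => by
      induction n with
      | zero => simp
      | succ n ih => simp [pow_succ, h9, ih]
    have := h10 (2 * m + 1)
    rw [← sq, ← pow_mul, mul_comm, pow_mul, h8] at this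
    simp [eq_zero_of_neg_eq (show -c = c by simpa [pow_succ] using this.symm)] at hc
  rwa [pow_succ, pow_mul, sq, h7, one_pow, one_mul] at h1

omit h4 in
theorem H1.inf_le [Finite X] (hH : P.H1 X) : oddCore _ ⊓ P.Mb X ≤ hH.Eb ⊤ := by
  obtain ⟨m, hm⟩ := Solv.odd_card_oddCore (X ⧸ Pauli.Zs X)
  have hn : (oddCore (X ⧸ Pauli.Zs X)).Normal := inferInstance
  generalize oddCore (X ⧸ Pauli.Zs X) = O at hm hn
  let π := QuotientGroup.mk' (Pauli.Zs X)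
  have h6 : ∀ y : X, π y ∈ O → ∀ s l, P.Ind y s l → s ^ (2 * m + 1) = 1 :=
    fun y hy s l hs => by
      have h1 := congrArg Subtype.val (pow_card_eq_one' (x := (⟨_, hy⟩ : O)))
      rw [hm, Subgroup.coe_pow, ← map_pow] at h1
      generalize 2 * m + 1 = n at h1
      obtain ⟨c, e⟩ := (Pauli.mk_eq_iff X (h := 1)).1 h1
      obtain ⟨l', h'⟩ := hs.pow n
      exact h'.eq_one ⟨c, 0, by rw [P.zero]; exact e⟩
  rintro _ ⟨hO, x, hx, rfl⟩
  obtain ⟨s, l, hs⟩ := Pau.exists_ind hx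
  obtain rfl := eq_one_of_odd hs.mem_SpG (h6 x hO s l hs) fun c => by
    have h1 := mul_mem hO (hn.conj_mem _ (inv_mem hO) (π ⟨P.τ c 1, hH.2 c 1⟩))
    rw [← map_inv, ← map_inv, ← map_mul, ← map_mul, ← map_mul, ← mul_assoc, ← mul_assoc] at h1
    exact h6 _ h1 _ _ (((hs.mul (P.ind_τ c 1)).mul hs.inv).mul (P.ind_τ c 1).inv)
  obtain ⟨c, w, e⟩ := hs.mem_R
  exact hH.mem_Eb.2 ⟨w, trivial, ((Pauli.mk_eq_iff X).2 ⟨c, e⟩).symm⟩

/-- The endgame. -/
theorem endgame [Finite X] (hB : P.Base X) (hC : P.CentN X) (hH : P.H1 X) : X ≤ P.N := by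
  have : Nontrivial W := Module.nontrivial_of_finrank_pos (R := ZMod 3) (by omega)
  obtain ⟨a, b, hab⟩ := P.exists_hyp
  have h7 := eq_top_of_normal (hH.Eb_pGroup ⊤) (hH.Eb_comm ⊤)
    (hH.Eb_not_cyclic trivial trivial hab) (zstar h4 hB hC hH)
    (fun _ hw => by
      obtain ⟨w, -, rfl⟩ := hH.mem_Eb.1 hw
      exact mem_Mb.2 (P.ρ_mem_N w)) hH.inf_le
    fun g _ hw h0 hg => by
      obtain ⟨g, rfl⟩ := QuotientGroup.mk_surjective g
      obtain ⟨w, -, rfl⟩ := hH.mem_Eb.1 hw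
      obtain ⟨w', -, e⟩ := hH.mem_Eb.1 hg
      rw [← QuotientGroup.mk_inv, ← QuotientGroup.mk_mul, ← QuotientGroup.mk_mul] at e
      obtain ⟨c, e⟩ := (Pauli.mk_eq_iff X).1 e.symm
      exact mem_Mb.2 (hC.of_mem_R hH g.2 (u := w) (fun e => h0 (congrArg _ (Subtype.ext (by
        rw [e]; exact P.zero) : _ = (1 : X)))) ⟨c, _, e⟩)
  exact fun g hg => (mem_Mb (x := ⟨g, hg⟩)).1 (h7.ge trivial)

end Pau

end Cfsg.Lib.Class.C3
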