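import Cfsg.Agent.Class.C6.Beta

/-!
# Pauli systems over `ZMod 3` (groups `3^{1+2m}` times scalars) and their normalisers
-/

namespace Cfsg.Lib.Class.C3

open Module C6

variable {K V W : Type*} [Field K] [AddCommGroup V] [Module K V] [AddCommGroup W]
  [Module (ZMod 3) W]

theorem z3_cases (a : ZMod 3) : a = 0 ∨ a = 1 ∨ a = -1 := by revert a; decide

theorem z3_mul_self {a : ZMod 3} (h : a ≠ 0) : a * a = 1 := by revert a; decide

theorem z3_three : (3 : ZMod 3) = 0 := rfl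

theorem add_self3 (u : W) : u + u = -u := by
  rw [← two_smul (ZMod 3) u, show (2 : ZMod 3) = -1 from rfl, neg_one_smul]

theorem eq_zero_of_neg_eq {u : W} (h : -u = u) : u = 0 := by
  have := add_self3 u
  rwa [h, add_eq_left] at this

/-- the character `k ↦ ω ^ k` -/
def chi (ω : Kˣ) (k : ZMod 3) : Kˣ := ω ^ k.val

/-- A Pauli system on `V` indexed by the symplectic `F₃`-space `W`. -/
structure Pau (K V W : Type*) [Field K] [AddCommGroup V] [Module K V] [AddCommGroup W]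
    [Module (ZMod 3) W] where
  β : LinearMap.BilinForm (ZMod 3) W
  alt : ∀ u, β u u = 0
  nondeg : ∀ u, (∀ v, β u v = 0) → u = 0
  ω : Kˣ
  hω : (ω : K) ^ 2 + ω + 1 = 0
  three : (3 : K) ≠ 0
  ρ : W → V ≃ₗ[K] V
  zero : ρ 0 = 1
  mul : ∀ u v, ρ u * ρ v = sc V (chi ω (-β u v)) * ρ (u + v)
  card : Nat.card W = finrank K V ^ 2
  fin : Finite W

namespace Pau

variable (P : Pau K V W)

/-- the character `k ↦ ω ^ k` -/
def χ (k : ZMod 3) : Kˣ := chi P.ω k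

theorem ω_cube : P.ω ^ 3 = 1 :=
  Units.ext (by
    rw [Units.val_pow_eq_pow_val, Units.val_one]; linear_combination ((P.ω : K) - 1) * P.hω)

theorem ω_ne_one : (P.ω : K) ≠ 1 := fun h => P.three (by
  have := P.hω
  rw [h] at this
  linear_combination this)

@[simp] theorem χ_zero : P.χ 0 = 1 := pow_zero _

theorem χ_one : P.χ 1 = P.ω := pow_one _

theorem χ_neg_one : P.χ (-1) = P.ω ^ 2 := rfl

theorem χ_add (a b : ZMod 3) : P.χ (a + b) = P.χ a * P.χ b := by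
  simp only [χ, chi, ZMod.val_add]
  rw [← pow_add, ← pow_eq_pow_mod _ P.ω_cube]

theorem χ_neg (a : ZMod 3) : P.χ (-a) = (P.χ a)⁻¹ :=
  eq_inv_of_mul_eq_one_left (by rw [← χ_add, neg_add_cancel, χ_zero])

theorem χ_cube (a : ZMod 3) : P.χ a ^ 3 = 1 := by
  rw [χ, chi, ← pow_mul, mul_comm, pow_mul, P.ω_cube, one_pow]

theorem χv_mul (a b : ZMod 3) : (P.χ a : K) * P.χ b = P.χ (a + b) := by
  rw [χ_add, Units.val_mul]

theorem χv_cube (a : ZMod 3) : (P.χ a : K) ^ 3 = 1 := by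
  rw [← Units.val_pow_eq_pow_val, χ_cube, Units.val_one]

theorem χ_eq_one {a : ZMod 3} (h : P.χ a = 1) : a = 0 := by
  have h1 := P.ω_ne_one
  rcases z3_cases a with rfl | rfl | rfl
  · rfl
  · rw [χ_one] at h; exact absurd (by rw [h]; rfl) h1
  · rw [χ_neg, inv_eq_one, χ_one] at h; exact absurd (by rw [h]; rfl) h1

theorem χ_inj {a b : ZMod 3} (h : P.χ a = P.χ b) : a = b :=
  sub_eq_zero.1 (P.χ_eq_one (by rw [sub_eq_add_neg, χ_add, χ_neg, h, mul_inv_cancel]))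

theorem χv_inj {a b : ZMod 3} (h : (P.χ a : K) = P.χ b) : a = b := P.χ_inj (Units.ext h)

theorem exists_χ {c : Kˣ} (h : c ^ 3 = 1) : ∃ a, c = P.χ a := by
  have h1 : (c : K) ^ 3 = 1 := by rw [← Units.val_pow_eq_pow_val, h, Units.val_one]
  have h2 : ((c : K) - 1) * (c - P.ω) * (c - P.ω ^ 2) = 0 := by
    linear_combination h1 + (-(c : K) ^ 2 + c * P.ω - (P.ω - 1)) * P.hω
  rcases mul_eq_zero.1 h2 with h3 | h3
  · rcases mul_eq_zero.1 h3 with h3 | h3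
    · exact ⟨0, Units.ext (by simpa [sub_eq_zero] using h3)⟩
    · exact ⟨1, Units.ext (by rw [χ_one]; exact sub_eq_zero.1 h3)⟩
  · exact ⟨-1, Units.ext (by rw [χ_neg_one]; simpa [sub_eq_zero] using h3)⟩

theorem χv_sum {a : ZMod 3} (h : a ≠ 0) : 1 + (P.χ a : K) + P.χ (-a) = 0 := by
  rcases z3_cases a with rfl | rfl | rfl
  · exact absurd rfl h
  · rw [χ_one, χ_neg_one, Units.val_pow_eq_pow_val]; linear_combination P.hω
  · rw [neg_neg, χ_one, χ_neg_one, Units.val_pow_eq_pow_val]; linear_combination P.hω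

theorem β_swap (u v : W) : P.β u v = -P.β v u := by
  have h := P.alt (u + v)
  simp only [map_add, LinearMap.add_apply, P.alt, zero_add, add_zero] at h
  linear_combination h

theorem β_comm0 {u v : W} (h : P.β u v = 0) : P.β v u = 0 := by rw [β_swap, h, neg_zero]

theorem exists_β_eq_one {u : W} (hu : u ≠ 0) : ∃ y, P.β u y = 1 := by
  obtain ⟨y, hy⟩ : ∃ y, P.β u y ≠ 0 := by
    by_contra! h
    exact hu (P.nondeg u h)
  exact ⟨P.β u y • y, by rw [map_smul, smul_eq_mul, z3_mul_self hy]⟩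

theorem eq_of_β {u v : W} (h : ∀ w, P.β u w = P.β v w) : u = v :=
  sub_eq_zero.1 (P.nondeg _ fun w => by rw [map_sub, LinearMap.sub_apply, h, sub_self])

theorem exists_β_eq_dual (f : W →ₗ[ZMod 3] ZMod 3) : ∃ w, ∀ u, P.β w u = f u := by
  have := P.fin
  have hinj : Function.Injective (P.β : W →ₗ[ZMod 3] Dual (ZMod 3) W) := fun u v h =>
    P.eq_of_β fun w => by rw [h]
  have hsurj : Function.Surjective (P.β : W →ₗ[ZMod 3] Dual (ZMod 3) W) :=
    (LinearMap.injective_iff_surjective_of_finrank_eq_finrank (Subspace.dual_finrank_eq).symm).1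
      hinj
  obtain ⟨w, hw⟩ := hsurj f
  exact ⟨w, fun u => by rw [hw]⟩

theorem exists_β_of_notMem {S : Submodule (ZMod 3) W} {a : W} (ha : a ∉ S) :
    ∃ y, P.β y a = 1 ∧ ∀ s ∈ S, P.β y s = 0 := by
  obtain ⟨g, hg, hga⟩ := LinearMap.exists_extend_of_notMem (0 : S →ₗ[ZMod 3] ZMod 3) ha 1
  obtain ⟨w, hw⟩ := P.exists_β_eq_dual g
  refine ⟨w, by rw [hw, hga], fun s hs => ?_⟩
  rw [hw]
  exact LinearMap.congr_fun hg ⟨s, hs⟩

include P in
theorem finrank_pos : 0 < finrank K V := by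
  have := P.fin
  have h : 0 < Nat.card W := Nat.card_pos
  rw [P.card] at h
  exact Nat.pos_of_ne_zero fun e => by simp [e] at h

include P in
theorem fd : FiniteDimensional K V := Module.finite_of_finrank_pos P.finrank_pos

include P in
theorem nontriv : Nontrivial V := Module.nontrivial_of_finrank_pos P.finrank_pos

include P in
theorem sc_inj {c d : Kˣ} (h : sc V c = sc V d) : c = d :=
  haveI := P.nontriv
  sc_injective h

theorem mul' (u v : W) : P.ρ u * P.ρ v = sc V (P.χ (-P.β u v)) * P.ρ (u + v) := P.mul u v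

theorem ρ_ρ (u w : W) (v : V) : P.ρ u (P.ρ w v) = (P.χ (-P.β u w) : K) • P.ρ (u + w) v := by
  rw [← LinearEquiv.mul_apply, P.mul']; rfl

theorem ρ_zero_apply (v : V) : P.ρ 0 v = v := by rw [P.zero]; rfl

theorem mul_of_β {u v : W} (h : P.β u v = 0) : P.ρ u * P.ρ v = P.ρ (u + v) := by
  rw [P.mul', h, neg_zero, χ_zero, map_one, one_mul]

theorem ρ_inv (u : W) : (P.ρ u)⁻¹ = P.ρ (-u) :=
  inv_eq_of_mul_eq_one_right (by rw [P.mul_of_β (by simp [P.alt]), add_neg_cancel, P.zero])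

theorem ρ_mul_self (u : W) : P.ρ u * P.ρ u = P.ρ (-u) := by rw [P.mul_of_β (P.alt u), add_self3]

theorem ρ_cube (u : W) : P.ρ u ^ 3 = 1 := by
  rw [pow_succ, sq, ρ_mul_self, ← ρ_inv, inv_mul_cancel]

@[simp] theorem ρ_neg_ρ (u : W) (v : V) : P.ρ (-u) (P.ρ u v) = v := by
  rw [← ρ_inv]; exact inv_apply_apply _ _

@[simp] theorem ρ_ρ_neg (u : W) (v : V) : P.ρ u (P.ρ (-u) v) = v := by
  rw [← ρ_inv]; exact apply_inv_apply _ _

theorem comm (u v : W) : P.ρ u * P.ρ v = sc V (P.χ (P.β u v)) * (P.ρ v * P.ρ u) := by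
  rw [P.mul', P.mul', ← mul_assoc, ← map_mul, ← χ_add, add_comm v u, P.β_swap v u, neg_neg]
  congr 3
  linear_combination (-P.β u v) * z3_three

theorem ρ_comm (u w : W) (v : V) : P.ρ u (P.ρ w v) = (P.χ (P.β u w) : K) • P.ρ w (P.ρ u v) := by
  rw [← LinearEquiv.mul_apply, P.comm]; rfl

theorem commute_ρ {u w : W} (h : P.β u w = 0) : Commute (P.ρ u) (P.ρ w) := by
  have := P.comm u w
  rwa [h, χ_zero, map_one, one_mul] at this

theorem conj_ρ (u w : W) : P.ρ u * P.ρ w * (P.ρ u)⁻¹ = sc V (P.χ (P.β u w)) * P.ρ w := by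
  rw [P.comm, mul_assoc, mul_inv_cancel_right]

theorem eq_of_sc_ρ {c d : Kˣ} {u v : W} (h : sc V c * P.ρ u = sc V d * P.ρ v) :
    u = v ∧ c = d := by
  have huv : u = v := by
    refine P.eq_of_β fun w => ?_
    have h1 := congrArg (fun g => P.ρ w * g * (P.ρ w)⁻¹) h
    simp only [conj_sc_mul, P.conj_ρ] at h1
    rw [← mul_assoc, ← mul_assoc, sc_comm _ (sc V c), sc_comm _ (sc V d), mul_assoc, mul_assoc,
      h] at h1
    rw [P.β_swap u, P.β_swap v, P.χ_inj (P.sc_inj (mul_right_cancel h1))]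
  subst huv
  exact ⟨rfl, P.sc_inj (mul_right_cancel h)⟩

theorem eq_zero_of_sc_ρ {c d : Kˣ} {u : W} (h : sc V c * P.ρ u = sc V d) : u = 0 :=
  (P.eq_of_sc_ρ (v := 0) (by rw [h, P.zero, mul_one])).1

theorem sc_mul_pow (c : Kˣ) (g : V ≃ₗ[K] V) (n : ℕ) : (sc V c * g) ^ n = sc V (c ^ n) * g ^ n := by
  rw [(commute_sc c g).symm.mul_pow, map_pow]

theorem cube_of_cube {c : Kˣ} {u : W} (h : (sc V c * P.ρ u) ^ 3 = 1) : c ^ 3 = 1 := by
  rw [sc_mul_pow, ρ_cube, mul_one] at h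
  exact P.sc_inj (h.trans (map_one _).symm)

/-! ### traces and the spanning property -/

include P in
theorem natCast_finrank_ne : (finrank K V : K) ≠ 0 := by
  have := P.fin
  have h : ((finrank K V : K)) ^ 2 = 3 ^ finrank (ZMod 3) W := by
    rw [← Nat.cast_pow, ← P.card, Module.natCard_eq_pow_finrank (K := ZMod 3), Nat.card_zmod]
    simp
  intro e
  rw [e] at h
  exact pow_ne_zero _ P.three (by rw [← h]; simp)

/-- the trace of an automorphism -/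
noncomputable def tr (g : V ≃ₗ[K] V) : K := LinearMap.trace K V g

theorem tr_conj (g x : V ≃ₗ[K] V) : tr (g * x * g⁻¹) = tr x := by
  have := LinearMap.trace_conj' (x : V →ₗ[K] V) g
  rw [tr, tr, ← this]
  congr 1

theorem tr_sc_mul (c : Kˣ) (x : V ≃ₗ[K] V) : tr (sc V c * x) = c * tr x := by
  rw [tr, tr, ← smul_eq_mul (c : K), ← map_smul]
  congr 1

theorem tr_ρ {u : W} (hu : u ≠ 0) : tr (P.ρ u) = 0 := by
  obtain ⟨y, hy⟩ := P.exists_β_eq_one hu
  have h := tr_conj (P.ρ y) (P.ρ u)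
  rw [P.conj_ρ, tr_sc_mul, P.β_swap, hy] at h
  have h2 : ((P.χ (-1) : K) - 1) * tr (P.ρ u) = 0 := by linear_combination h
  refine (mul_eq_zero.1 h2).resolve_left fun e => ?_
  exact absurd (P.χv_inj (b := 0) (by simpa [sub_eq_zero] using e)) (by decide)

theorem tr_ρ_zero : tr (P.ρ 0) = finrank K V := by
  have := P.fd
  rw [P.zero, tr]
  exact LinearMap.trace_id K V

theorem linearIndependent : LinearIndependent K fun u => (P.ρ u : V →ₗ[K] V) := by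
  classical
  rw [linearIndependent_iff']
  intro s c h v hv
  have h1 := congrArg (fun f => LinearMap.trace K V ((P.ρ (-v) : V →ₗ[K] V) * f)) h
  simp only [Finset.mul_sum, mul_smul_comm, map_sum, map_smul, mul_zero, map_zero] at h1
  have h2 : ∀ u, LinearMap.trace K V ((P.ρ (-v) : V →ₗ[K] V) * P.ρ u) =
      P.χ (-P.β (-v) u) * tr (P.ρ (-v + u)) := fun u => by
    rw [← tr_sc_mul, ← P.mul']; rfl
  rw [Finset.sum_eq_single v (fun u _ hu => by
    rw [h2, P.tr_ρ (by rwa [neg_add_eq_sub, sub_ne_zero]), mul_zero, smul_zero]) (fun h => absurd hv h),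
    h2, neg_add_cancel, P.tr_ρ_zero, smul_eq_mul] at h1
  simpa [P.natCast_finrank_ne] using h1

theorem span (f : V →ₗ[K] V) :
    f ∈ Submodule.span K (Set.range fun u => (P.ρ u : V →ₗ[K] V)) := by
  have := P.fin
  have := P.fd
  have := Fintype.ofFinite W
  have h := P.linearIndependent.span_eq_top_of_card_eq_finrank' (by
    rw [Module.finrank_linearMap, ← Nat.card_eq_fintype_card, P.card, sq])
  exact h.ge Submodule.mem_top

/-- Schur's lemma for a Pauli system -/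
theorem schur (f : V →ₗ[K] V) (h : ∀ u v, f (P.ρ u v) = P.ρ u (f v)) :
    ∃ c : K, ∀ v, f v = c • v := by
  have : f ∈ Set.center (End K V) := by
    rw [Semigroup.mem_center_iff]
    intro g
    have hg := P.span g
    induction hg using Submodule.span_induction with
    | mem x hx =>
      obtain ⟨u, rfl⟩ := hx
      ext v
      exact (h u v).symm
    | zero => simp
    | add x y _ _ hx hy => rw [add_mul, mul_add, hx, hy]
    | smul a x _ hx => rw [smul_mul_assoc, mul_smul_comm, hx]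
  obtain ⟨c, hc0, hc⟩ := Module.End.mem_center_iff.1 this
  exact ⟨c, fun v => by rw [hc]; rfl⟩

include P in
theorem exists_sc_of_smul {g : V ≃ₗ[K] V} {c : K} (hc : ∀ v, g v = c • v) :
    ∃ c' : Kˣ, g = sc V c' := by
  have := P.nontriv
  obtain ⟨v, hv⟩ := exists_ne (0 : V)
  have hc0 : c ≠ 0 := by
    rintro rfl
    exact hv (g.map_eq_zero_iff.1 (by simpa using hc v))
  exact ⟨Units.mk0 c hc0, LinearEquiv.ext fun v => hc v⟩

theorem schur' {g : V ≃ₗ[K] V} (h : ∀ u, Commute g (P.ρ u)) : ∃ c : Kˣ, g = sc V c := by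
  obtain ⟨c, hc⟩ := P.schur (g : V →ₗ[K] V) fun u v => commute_apply (h u) v
  exact P.exists_sc_of_smul hc

/-! ### the group `R` and its normaliser -/

/-- the group of all scalar multiples of the `ρ u` -/
def R : Subgroup (V ≃ₗ[K] V) where
  carrier := {g | ∃ c u, g = sc V c * P.ρ u}
  one_mem' := ⟨1, 0, by rw [map_one, P.zero, mul_one]⟩
  mul_mem' := by
    rintro _ _ ⟨c, u, rfl⟩ ⟨d, v, rfl⟩
    exact ⟨c * d * _, u + v, by rw [sc_mul_sc_mul, P.mul', ← mul_assoc, ← map_mul]⟩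
  inv_mem' := by
    rintro _ ⟨c, u, rfl⟩
    exact ⟨c⁻¹, -u, by rw [mul_inv_rev, P.ρ_inv, ← map_inv, sc_comm]⟩

theorem mem_R {g : V ≃ₗ[K] V} : g ∈ P.R ↔ ∃ c u, g = sc V c * P.ρ u := Iff.rfl

theorem ρ_mem_R (u : W) : P.ρ u ∈ P.R := ⟨1, u, by rw [map_one, one_mul]⟩

theorem sc_mem_R (c : Kˣ) : sc V c ∈ P.R := ⟨c, 0, by rw [P.zero, mul_one]⟩

/-- the normaliser of `R` -/
def N : Subgroup (V ≃ₗ[K] V) := Subgroup.normalizer (P.R : Set (V ≃ₗ[K] V))

theorem R_le_N : P.R ≤ P.N := Subgroup.le_normalizer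

theorem ρ_mem_N (u : W) : P.ρ u ∈ P.N := P.R_le_N (P.ρ_mem_R u)

theorem sc_mem_N (c : Kˣ) : sc V c ∈ P.N := P.R_le_N (P.sc_mem_R c)

theorem conj_mem_R {g r : V ≃ₗ[K] V} (hg : g ∈ P.N) (hr : r ∈ P.R) : g * r * g⁻¹ ∈ P.R :=
  (Subgroup.mem_normalizer_iff.1 hg r).1 hr

theorem exists_χ_of_conj {g : V ≃ₗ[K] V} {u w : W} {c : Kˣ}
    (h : g * P.ρ u * g⁻¹ = sc V c * P.ρ w) : ∃ a, c = P.χ a :=
  P.exists_χ (P.cube_of_cube (u := w) (by rw [← h, conj_pow, ρ_cube]; simp))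

theorem exists_of_conj_mem {g : V ≃ₗ[K] V} {u : W} (h : g * P.ρ u * g⁻¹ ∈ P.R) :
    ∃ a w, g * P.ρ u * g⁻¹ = sc V (P.χ a) * P.ρ w := by
  obtain ⟨c, w, hc⟩ := h
  obtain ⟨a, rfl⟩ := P.exists_χ_of_conj hc
  exact ⟨a, w, hc⟩

theorem conj_symm {g : V ≃ₗ[K] V} {u w : W} {c : Kˣ} (h : g * P.ρ u * g⁻¹ = sc V c * P.ρ w) :
    g⁻¹ * P.ρ w * g⁻¹⁻¹ = sc V c⁻¹ * P.ρ u := by
  have : P.ρ w = sc V c⁻¹ * (g * P.ρ u * g⁻¹) := by rw [h, map_inv, inv_mul_cancel_left]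
  rw [this, conj_sc_mul]; congr 1; group

theorem eq_of_conj {g : V ≃ₗ[K] V} {u u' w : W} {c c' : Kˣ}
    (h : g * P.ρ u * g⁻¹ = sc V c * P.ρ w) (h' : g * P.ρ u' * g⁻¹ = sc V c' * P.ρ w) : u = u' :=
  (P.eq_of_sc_ρ ((P.conj_symm h).symm.trans (P.conj_symm h'))).1

theorem ne_zero_of_conj {g : V ≃ₗ[K] V} {u w : W} {c : Kˣ}
    (h : g * P.ρ u * g⁻¹ = sc V c * P.ρ w) (hu : u ≠ 0) : w ≠ 0 := by
  rintro rfl
  exact hu (P.eq_of_conj h (c' := 1) (by simp [P.zero]))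

theorem mem_N_of_forall {g : V ≃ₗ[K] V} (h : ∀ u, g * P.ρ u * g⁻¹ ∈ P.R) : g ∈ P.N := by
  have := P.fin
  choose c f hf using h
  have hinj : Function.Injective f := fun u u' e => P.eq_of_conj (hf u) (by rw [e]; exact hf u')
  have hsurj := Finite.surjective_of_injective hinj
  rw [N, Subgroup.mem_normalizer_iff]
  intro r
  constructor
  · rintro ⟨d, u, rfl⟩
    rw [conj_sc_mul, hf]
    exact mul_mem (P.sc_mem_R _) ⟨_, _, rfl⟩
  · rintro ⟨d, w, hw⟩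
    obtain ⟨u, rfl⟩ := hsurj w
    refine ⟨d * (c u)⁻¹, u, ?_⟩
    have : g * r * g⁻¹ = g * (sc V (d * (c u)⁻¹) * P.ρ u) * g⁻¹ := by
      rw [conj_sc_mul, hf, hw, ← mul_assoc, ← map_mul, inv_mul_cancel_right]
    exact mul_left_cancel (mul_right_cancel this)

theorem β_of_conj {g : V ≃ₗ[K] V} {u u' w w' : W} {c c' : Kˣ}
    (h : g * P.ρ u * g⁻¹ = sc V c * P.ρ w) (h' : g * P.ρ u' * g⁻¹ = sc V c' * P.ρ w') :
    P.β w w' = P.β u u' := by
  have e := congrArg (fun k => g * k * g⁻¹) (P.comm u u')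
  simp only [conj_sc_mul] at e
  rw [show g * (P.ρ u * P.ρ u') * g⁻¹ = g * P.ρ u * g⁻¹ * (g * P.ρ u' * g⁻¹) by group,
    show g * (P.ρ u' * P.ρ u) * g⁻¹ = g * P.ρ u' * g⁻¹ * (g * P.ρ u * g⁻¹) by group, h, h',
    sc_mul_sc_mul, sc_mul_sc_mul, P.comm w w', ← mul_assoc, ← mul_assoc, ← mul_assoc (sc V _),
    ← mul_assoc (sc V _ * _), ← map_mul, ← map_mul, mul_comm c' c, mul_comm (P.χ _)] at e
  exact P.χ_inj (mul_left_cancel (P.sc_inj (mul_right_cancel (mul_right_cancel e))))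

theorem conj_add {g : V ≃ₗ[K] V} {u u' w w' : W} {c c' : Kˣ}
    (h : g * P.ρ u * g⁻¹ = sc V c * P.ρ w) (h' : g * P.ρ u' * g⁻¹ = sc V c' * P.ρ w') :
    g * P.ρ (u + u') * g⁻¹ = sc V (c * c') * P.ρ (w + w') := by
  have : P.ρ (u + u') = sc V (P.χ (-P.β u u'))⁻¹ * (P.ρ u * P.ρ u') := by
    rw [P.mul', map_inv, inv_mul_cancel_left]
  rw [this, conj_sc_mul, show g * (P.ρ u * P.ρ u') * g⁻¹ = g * P.ρ u * g⁻¹ * (g * P.ρ u' * g⁻¹) by
    group, h, h', sc_mul_sc_mul, P.mul', P.β_of_conj h h', ← mul_assoc, ← mul_assoc, ← map_mul,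
    ← map_mul, mul_comm _ (c * c'), inv_mul_cancel_right]

theorem conj_neg {g : V ≃ₗ[K] V} {u w : W} {c : Kˣ} (h : g * P.ρ u * g⁻¹ = sc V c * P.ρ w) :
    g * P.ρ (-u) * g⁻¹ = sc V c⁻¹ * P.ρ (-w) := by
  rw [← ρ_inv, ← ρ_inv, ← conj_inv, h, mul_inv_rev, ← map_inv, sc_comm]

/-- `g` induces `s` on `W` with phases `l` -/
def Ind (g : V ≃ₗ[K] V) (s : W ≃ₗ[ZMod 3] W) (l : W →ₗ[ZMod 3] ZMod 3) : Prop :=
  ∀ w, g * P.ρ w * g⁻¹ = sc V (P.χ (l w)) * P.ρ (s w)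

variable {P} {g g' : V ≃ₗ[K] V} {s s' : W ≃ₗ[ZMod 3] W} {l l' : W →ₗ[ZMod 3] ZMod 3}

theorem Ind.apply (h : P.Ind g s l) (w : W) (v : V) :
    g (P.ρ w v) = (P.χ (l w) : K) • P.ρ (s w) (g v) := by
  have := congrArg (fun k : V ≃ₗ[K] V => k (g v)) (h w)
  simpa only [LinearEquiv.mul_apply, inv_apply_apply, sc_apply] using this

theorem Ind.mem_N (h : P.Ind g s l) : g ∈ P.N := P.mem_N_of_forall fun u => ⟨_, _, h u⟩

theorem Ind.β (h : P.Ind g s l) (u v : W) : P.β (s u) (s v) = P.β u v := P.β_of_conj (h u) (h v)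

theorem Ind.eq (h : P.Ind g s l) {u w : W} {c : Kˣ} (e : g * P.ρ u * g⁻¹ = sc V c * P.ρ w) :
    s u = w ∧ P.χ (l u) = c := P.eq_of_sc_ρ ((h u).symm.trans e)

theorem Ind.unique (h : P.Ind g s l) (h' : P.Ind g s' l') : s = s' :=
  LinearEquiv.ext fun w => (h.eq (h' w)).1

theorem Ind.mul (h : P.Ind g s l) (h' : P.Ind g' s' l') :
    P.Ind (g * g') (s * s') (l' + l ∘ₗ s') := fun w => by
  rw [show g * g' * P.ρ w * (g * g')⁻¹ = g * (g' * P.ρ w * g'⁻¹) * g⁻¹ by group, h', conj_sc_mul, h,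
    ← mul_assoc, ← map_mul, ← χ_add]
  rfl

theorem Ind.inv (h : P.Ind g s l) : P.Ind g⁻¹ s⁻¹ (-l ∘ₗ (s⁻¹ : W ≃ₗ[ZMod 3] W)) := fun w => by
  have := P.conj_symm (h (s⁻¹ w))
  rwa [apply_inv_apply, ← χ_neg] at this

theorem ind_one : P.Ind 1 1 0 := fun w => by simp

theorem ind_sc (c : Kˣ) : P.Ind (sc V c) 1 0 := fun w => by
  rw [← sc_comm]; simp

theorem ind_ρ (u : W) : P.Ind (P.ρ u) 1 (P.β u) := fun w => P.conj_ρ u w

theorem Ind.congr (h : P.Ind g s l) (e : ∀ w, s w = s' w) (e' : ∀ w, l w = l' w) : P.Ind g s' l' :=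
  fun w => by rw [← e, ← e', h]

theorem Ind.sc_mul (h : P.Ind g s l) (c : Kˣ) : P.Ind (sc V c * g) s l :=
  ((ind_sc c).mul h).congr (by simp) (by simp)

theorem Ind.pow (h : P.Ind g s l) (n : ℕ) : ∃ l, P.Ind (g ^ n) (s ^ n) l := by
  induction n with
  | zero => exact ⟨_, by simpa using ind_one⟩
  | succ n ih => obtain ⟨l', h'⟩ := ih; exact ⟨_, by simpa only [pow_succ] using h'.mul h⟩

theorem exists_ind (hg : g ∈ P.N) : ∃ s l, P.Ind g s l := by
  have := P.fin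
  choose a f hf using fun u => P.exists_of_conj_mem (P.conj_mem_R hg (P.ρ_mem_R u))
  have hadd : ∀ u v, f (u + v) = f u + f v ∧ a (u + v) = a u + a v := fun u v => by
    have := P.eq_of_sc_ρ ((hf (u + v)).symm.trans (P.conj_add (hf u) (hf v)))
    exact ⟨this.1, P.χ_inj (by rw [this.2, χ_add])⟩
  let f' : W →ₗ[ZMod 3] W := (AddMonoidHom.mk' f fun u v => (hadd u v).1).toZModLinearMap 3
  have hinj : Function.Injective f' := fun u u' (e : f u = f u') =>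
    P.eq_of_conj (hf u) (by rw [e]; exact hf u')
  exact ⟨LinearEquiv.ofBijective f' ⟨hinj, Finite.surjective_of_injective hinj⟩,
    (AddMonoidHom.mk' a fun u v => (hadd u v).2).toZModLinearMap 3, hf⟩

theorem Ind.exists_eq (h : P.Ind g 1 l) : ∃ c w, g = sc V c * P.ρ w ∧ ∀ u, P.β w u = l u := by
  obtain ⟨w, hw⟩ := P.exists_β_eq_dual l
  have h1 := (ind_ρ (P := P) (-w)).mul h
  obtain ⟨c, hc⟩ := P.schur' (g := P.ρ (-w) * g) fun u => by
    have := h1 u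
    simp only [mul_one, LinearEquiv.coe_one, id, LinearMap.add_apply, LinearMap.comp_apply,
      LinearEquiv.coe_coe, map_neg, LinearMap.neg_apply, hw, add_neg_cancel, χ_zero, map_one,
      one_mul] at this
    exact mul_inv_eq_iff_eq_mul.1 this
  refine ⟨c, w, ?_, hw⟩
  rw [← sc_comm, ← hc, ← ρ_inv, mul_inv_cancel_left]

theorem Ind.mem_R (h : P.Ind g 1 l) : g ∈ P.R := by
  obtain ⟨c, w, e, -⟩ := h.exists_eq
  exact ⟨c, w, e⟩

theorem Ind.eq_one (h : P.Ind g s l) (hg : g ∈ P.R) : s = 1 := by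
  obtain ⟨c, w, rfl⟩ := hg
  exact h.unique ((ind_ρ w).sc_mul c)

theorem mem_R_of_forall (h : ∀ u, ∃ c, g * P.ρ u * g⁻¹ = sc V c * P.ρ u) : g ∈ P.R := by
  obtain ⟨s, l, hs⟩ := exists_ind (P.mem_N_of_forall fun u => (h u).imp fun c hc => ⟨u, hc⟩)
  obtain rfl : s = 1 := LinearEquiv.ext fun u => by
    obtain ⟨c, hc⟩ := h u
    exact (hs.eq hc).1
  exact hs.mem_R

theorem Ind.commute (h : P.Ind g s l) {u : W} (h1 : s u = u) (h2 : l u = 0) :
    Commute g (P.ρ u) := by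
  have := h u
  rw [h1, h2, χ_zero, map_one, one_mul] at this
  exact mul_inv_eq_iff_eq_mul.1 this

theorem Ind.of_commute (h : P.Ind g s l) {u : W} (hc : Commute g (P.ρ u)) : s u = u ∧ l u = 0 := by
  have := h.eq (u := u) (w := u) (c := 1) (by rw [hc.eq]; simp)
  exact ⟨this.1, P.χ_eq_one this.2⟩

theorem Ind.comm (h : P.Ind g s l) (h' : P.Ind g' s' l') (hc : Commute g g') : Commute s s' :=
  (h.mul h').unique (hc.eq ▸ h'.mul h)

end Pau

end Cfsg.Lib.Class.C3
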