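import Cfsg.Agent.Class.C3.Eig
import Cfsg.Agent.Class.SLTv

/-!
# The group `Sp₂(3)`, determinants, and Pauli systems of dimension three
-/

namespace Cfsg.Lib.Class.C3

open Module C6

variable {K V W : Type*} [Field K] [AddCommGroup V] [Module K V] [AddCommGroup W]
  [Module (ZMod 3) W]

/-- the map `-1` -/
abbrev ng (W : Type*) [AddCommGroup W] [Module (ZMod 3) W] : W ≃ₗ[ZMod 3] W :=
  LinearEquiv.neg (ZMod 3)

theorem ng_mul_ng : ng W * ng W = 1 := LinearEquiv.ext fun w => neg_neg w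

theorem ng_comm (s : W ≃ₗ[ZMod 3] W) : s * ng W = ng W * s := LinearEquiv.ext fun w => map_neg s w

theorem ng_ne_one [Nontrivial W] : ng W ≠ 1 := fun h => by
  obtain ⟨w, hw⟩ := exists_ne (0 : W)
  exact hw (eq_zero_of_neg_eq (congrArg (fun s : W ≃ₗ[ZMod 3] W => s w) h))

namespace Pau

variable (P : Pau K V W) {u w y a b : W} {i j k : ZMod 3} {v : V} {g : V ≃ₗ[K] V}
  {s : W ≃ₗ[ZMod 3] W} {l : W →ₗ[ZMod 3] ZMod 3}

/-- the symplectic group -/
def SpG : Subgroup (W ≃ₗ[ZMod 3] W) where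
  carrier := {s | ∀ u v, P.β (s u) (s v) = P.β u v}
  one_mem' _ _ := rfl
  mul_mem' {s t} hs ht u v := by rw [LinearEquiv.mul_apply, LinearEquiv.mul_apply, hs, ht]
  inv_mem' {s} hs u v := by rw [← hs, apply_inv_apply, apply_inv_apply]

variable {P}

theorem Ind.mem_SpG (h : P.Ind g s l) : s ∈ P.SpG := h.β

theorem tv_mem_SpG (a : W) (k : ZMod 3) : P.tv a k ∈ P.SpG := (P.ind_τ a k).mem_SpG

theorem TV_le_SpG : P.TV ≤ P.SpG := (Subgroup.closure_le _).2 (by
  rintro _ ⟨a, k, rfl⟩; exact tv_mem_SpG a k)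

theorem ng_mem_SpG : ng W ∈ P.SpG := fun u v => by simp

theorem conj_tv (hs : s ∈ P.SpG) (a : W) (k : ZMod 3) : s * P.tv a k * s⁻¹ = P.tv (s a) k :=
  LinearEquiv.ext fun w => by
    simp only [LinearEquiv.mul_apply, tv_apply, map_add, map_smul, apply_inv_apply]
    rw [← hs, apply_inv_apply]

theorem tv_tv_sq (h : P.β a b ≠ 0) (hk : k ≠ 0) {x : W} (hx : x = a ∨ x = b) :
    (P.tv a k * P.tv b (-k)) ((P.tv a k * P.tv b (-k)) x) = -x := by
  have hb := P.β_swap b a
  rcases hx with hx | hx <;>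
  · simp only [hx, LinearEquiv.mul_apply, tv_apply, map_add, map_smul, P.alt, hb]
    clear hb hx
    generalize P.β a b = e at h
    match_scalars <;> (revert e k; decide)

theorem exists_β_ne (hs : s ∈ P.SpG) (h : s * s ≠ 1) : ∃ c, P.β (s c) c ≠ 0 := by
  by_contra! hc
  refine h (LinearEquiv.ext fun w => P.eq_of_β fun x => ?_)
  obtain ⟨x, rfl⟩ := s.surjective x
  have := hc (w + x)
  simp only [map_add, LinearMap.add_apply, hc, zero_add, add_zero] at this
  rw [LinearEquiv.mul_apply, hs, LinearEquiv.coe_one, id, P.β_swap w]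
  linear_combination this

theorem exists_hyp [Nontrivial W] : ∃ a b, P.β a b = 1 := by
  obtain ⟨a, ha⟩ := exists_ne (0 : W)
  exact ⟨a, P.exists_β_eq_one ha⟩

theorem ne_zero_of_β (h : P.β a b = 1) : a ≠ 0 := by rintro rfl; simp at h

theorem ne_zero_of_β' (h : P.β a b = 1) : b ≠ 0 := by rintro rfl; simp at h

theorem det_τ (ha : a ≠ 0) (k : ZMod 3) :
    LinearEquiv.det (P.τ a k) = P.χ k ^ (2 * finrank K (P.Ve a 0)) := by
  have := P.fd
  have hc := LinearMap.isCompl_of_proj (f := (P.pr a 0).codRestrict _ (P.pr_mem a 0))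
    fun x => Subtype.ext ((P.isDecProj a).self 0 x x.2)
  have h1 := Submodule.finrank_add_eq_of_isCompl hc
  have h2 := P.three_mul_finrank_Ve ha 0
  let e := Submodule.prodEquivOfIsCompl _ _ hc
  have : (P.τ a k : V →ₗ[K] V) = (e : _ →ₗ[K] V) ∘ₗ
      (LinearMap.id.prodMap ((P.χ k : K) • LinearMap.id)) ∘ₗ e.symm.toLinearMap := by
    ext v
    obtain ⟨⟨x, y⟩, rfl⟩ := e.surjective v
    have h0 : P.pr a 0 y = 0 := congrArg Subtype.val y.2
    have hy : P.τ a k y = (P.χ k : K) • y := by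
      rw [← P.sum_pr a y, h0, zero_add, map_add, τ_apply (P.pr_mem ..), τ_apply (P.pr_mem ..)]
      simp
    simp [e, τ_apply x.2, hy, h0]
  refine Units.ext ?_
  rw [LinearEquiv.coe_det, this, LinearMap.det_conj, LinearMap.det_prodMap, LinearMap.det_smul,
    LinearMap.det_id, LinearMap.det_id, one_mul, mul_one, Units.val_pow_eq_pow_val]
  congr 1
  omega

theorem τ_zero_left (k : ZMod 3) : P.τ 0 k = 1 := LinearEquiv.ext fun v => by
  rw [τ_apply (j := 0) (by simp [mem_Ve, P.zero])]; simp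

include P in
theorem det_sc' (c : Kˣ) : LinearEquiv.det (sc V c) = c ^ finrank K V := by
  have := P.fd
  refine Units.ext ?_
  rw [LinearEquiv.coe_det, show (sc V c : V →ₗ[K] V) = (c : K) • LinearMap.id from rfl,
    LinearMap.det_smul, LinearMap.det_id, mul_one, Units.val_pow_eq_pow_val]

theorem det_ρ (u : W) : LinearEquiv.det (P.ρ u) = 1 := by
  by_cases hu : u = 0
  · rw [hu, P.zero, map_one]
  obtain ⟨y, hy⟩ := P.exists_β_eq_one hu
  have h1 := congrArg LinearEquiv.det (P.ind_τ u (-1) y)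
  have h2 := congrArg LinearEquiv.det (P.mul' y u)
  simp only [map_mul, map_inv, mul_inv_cancel_comm, LinearMap.zero_apply, χ_zero, map_one, one_mul,
    tv_apply, P.β_swap y u, hy, mul_neg, neg_mul, neg_neg, one_smul] at h1
  rwa [map_mul, map_mul, ← h1, P.det_sc', ← P.three_mul_finrank_Ve hu 0, pow_mul, χ_cube, one_pow,
    one_mul, mul_eq_left] at h2

include P in
/-- an element whose square is a scalar becomes an involution after scaling (odd dimension) -/
theorem exists_sc_sq (hn : Odd (finrank K V)) {c : Kˣ} (h : g * g = sc V c) :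
    ∃ d : Kˣ, sc V d * g * (sc V d * g) = 1 := by
  obtain ⟨m, hm⟩ := hn
  have h1 := congrArg LinearEquiv.det h
  rw [map_mul, P.det_sc', hm] at h1
  refine ⟨(LinearEquiv.det g)⁻¹ * c ^ m, ?_⟩
  rw [sc_mul_sc_mul, h, ← map_mul, show (LinearEquiv.det g)⁻¹ * c ^ m * ((LinearEquiv.det g)⁻¹ *
    c ^ m) * c = (LinearEquiv.det g * LinearEquiv.det g)⁻¹ * c ^ (2 * m + 1) by
      simp only [mul_inv, pow_succ, two_mul, pow_add]; ac_rfl, h1,
    inv_mul_cancel, map_one]

section two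

variable (h2 : finrank (ZMod 3) W = 2)
include h2

theorem coord2 (hab : P.β a b = 1) (w : W) : w = (-P.β b w) • a + P.β a w • b := by
  have := P.fin
  have h1 := P.finrank_W1 hab
  have h3 : P.W1 a b = ⊥ := Submodule.finrank_eq_zero.1 (by omega)
  have := P.proj_mem_W1 hab w
  rw [h3, Submodule.mem_bot] at this
  linear_combination (norm := module) this

theorem ext2 (hab : P.β a b ≠ 0) {s t : W ≃ₗ[ZMod 3] W} (h1 : s a = t a) (h3 : s b = t b) :
    s = t := LinearEquiv.ext fun w => by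
  rw [coord2 (P := P) h2 (a := a) (b := P.β a b • b) (by simp [z3_mul_self hab]) w]
  simp [h1, h3]

theorem nontriv2 : Nontrivial W := Module.nontrivial_of_finrank_pos (R := ZMod 3) (by omega)

theorem cases2 (hs : s ∈ P.SpG) : s * s = ng W ∨ s ^ 3 = 1 ∨ s ^ 3 = ng W := by
  have := nontriv2 h2
  obtain ⟨a, b, hab⟩ := P.exists_hyp
  obtain ⟨t, ht⟩ : ∃ t : ZMod 3, ∀ w, s (s w) = t • s w - w := by
    have ha := coord2 h2 hab (s a)
    have hb := coord2 h2 hab (s b)
    have hd := hs a b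
    generalize -P.β b (s a) = p, P.β a (s a) = q, -P.β b (s b) = r, P.β a (s b) = t at ha hb
    rw [ha, hb] at hd
    simp only [map_add, map_smul, LinearMap.add_apply, LinearMap.smul_apply, P.alt, hab,
      P.β_swap b a, smul_eq_mul] at hd
    refine ⟨p + t, fun w => ?_⟩
    rw [coord2 h2 hab w]
    simp only [map_add, map_smul, ha, hb]
    match_scalars
    · linear_combination (P.β b w) * hd
    · linear_combination (-P.β a w) * hd
  have h3 : ∀ w, (s ^ 3) w = (t * t - 1) • s w - t • w := fun w => by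
    rw [pow_succ, sq, LinearEquiv.mul_apply, LinearEquiv.mul_apply, ht, ht]
    module
  rcases z3_cases t with rfl | rfl | rfl
  · exact .inl (LinearEquiv.ext fun w => by simpa using ht w)
  · exact .inr (.inr (LinearEquiv.ext fun w => by simpa using h3 w))
  · exact .inr (.inl (LinearEquiv.ext fun w => by simpa using h3 w))

theorem tv_tv_sq2 (h : P.β a b ≠ 0) (hk : k ≠ 0) :
    P.tv a k * P.tv b (-k) * (P.tv a k * P.tv b (-k)) = ng W :=
  ext2 h2 h (tv_tv_sq h hk (.inl rfl)) (tv_tv_sq h hk (.inr rfl))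

theorem SpG_le_TV : P.SpG ≤ P.TV := fun s hs => by
  have := nontriv2 h2
  obtain ⟨a, b, hab⟩ := P.exists_hyp
  obtain ⟨d, hd, e⟩ := P.exists_TV_apply (u := s a) (w := a) (by simpa using ne_zero_of_β hab)
    (ne_zero_of_β hab)
  have h1 : d * s ∈ P.SpG := mul_mem (TV_le_SpG hd) hs
  have h3 : (d * s) a = a := e
  have h4 := h1 a b
  rw [h3, hab] at h4
  have h5 : d * s = P.tv a (P.β b ((d * s) b)) := ext2 (P := P) h2 (a := a) (b := b) (by simp [hab])
    (by simp [tv_apply, P.alt, e]) (by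
      rw [tv_apply, P.β_swap b a, hab]
      conv_lhs => rw [coord2 h2 hab ((d * s) b), h4]
      module)
  rw [← mul_mem_cancel_left hd, h5]
  exact P.tv_mem_TV _ _

/-- A group with three maps onto `Sp₂(3)` containing the diagonal. -/
theorem gamma {C : Type*} [Group C] (f : ZMod 3 → C →* (W ≃ₗ[ZMod 3] W))
    (hf : ∀ i x, f i x ∈ P.SpG) (hd : ∀ s ∈ P.SpG, ∃ x, ∀ i, f i x = s)
    (hs : ∀ x m, ∃ x', ∀ i, f i x' = f (i + m) x) :
    (∀ x i j, f i x = f j x) ∨ ∃ x, f 0 x = ng W ∧ ∀ i, i ≠ 0 → f i x = 1 := by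
  have := nontriv2 h2
  have hn := ng_ne_one (W := W)
  have three : ∀ i : ZMod 3, i ≠ 0 → i = 1 ∨ i = -1 := by decide
  have A : ∀ x, f 0 x = 1 → (∀ i, f i x = 1 ∨ f i x = ng W) → (∃ i, f i x ≠ 1) →
      ∃ x, f 0 x = ng W ∧ ∀ i, i ≠ 0 → f i x = 1 := by
    rintro x h0 h1 ⟨i, hi⟩
    rcases h1 1 with e | e <;> rcases h1 (-1) with e' | e'
    · rcases z3_cases i with rfl | rfl | rfl <;> contradiction
    · obtain ⟨x', h⟩ := hs x (-1)
      exact ⟨x', by rw [h, zero_add, e'], fun j hj => by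
        rcases three j hj with rfl | rfl
        · rw [h, add_neg_cancel, h0]
        · rw [h, ← e]; rfl⟩
    · obtain ⟨x', h⟩ := hs x 1
      exact ⟨x', by rw [h, zero_add, e], fun j hj => by
        rcases three j hj with rfl | rfl
        · rw [h, ← e']; rfl
        · rw [h, neg_add_cancel, h0]⟩
    · obtain ⟨d, h⟩ := hd _ ng_mem_SpG
      exact ⟨d * x, by rw [map_mul, h, h0, mul_one], fun j hj => by
        rcases three j hj with rfl | rfl
        · rw [map_mul, h, e, ng_mul_ng]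
        · rw [map_mul, h, e', ng_mul_ng]⟩
  have six : ∀ s : W ≃ₗ[ZMod 3] W, s * s = ng W → s ^ 6 = ng W := fun s e => by
    rw [show 6 = 2 * 3 from rfl, pow_mul, sq, e, pow_succ, sq, ng_mul_ng, one_mul]
  have six' : ∀ s : W ≃ₗ[ZMod 3] W, s ^ 3 = 1 ∨ s ^ 3 = ng W → s ^ 6 = 1 := fun s e => by
    rw [show 6 = 3 * 2 from rfl, pow_mul, sq]
    rcases e with e | e <;> simp [e, ng_mul_ng]
  have B : ∀ x, f 0 x = 1 → (∃ i, f i x ^ 3 ≠ 1) →
      ∃ x, f 0 x = ng W ∧ ∀ i, i ≠ 0 → f i x = 1 := by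
    rintro x h0 ⟨i, hi⟩
    by_cases h : ∃ i, f i x * f i x = ng W
    · obtain ⟨j, hj⟩ := h
      refine A (x ^ 6) (by simp [h0]) (fun i => ?_) ⟨j, by rw [map_pow, six _ hj]; exact hn⟩
      rw [map_pow]
      exact (cases2 h2 (hf i x)).elim (fun e => .inr (six _ e)) fun e => .inl (six' _ e)
    · push Not at h
      exact A (x ^ 3) (by simp [h0]) (fun i => by
        rw [map_pow]; exact (cases2 h2 (hf i x)).resolve_left (h i)) ⟨i, by rwa [map_pow]⟩
  refine or_iff_not_imp_left.2 fun h => ?_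
  push Not at h
  obtain ⟨x, i, j, hij⟩ := h
  obtain ⟨x', hx'⟩ := hs x i
  obtain ⟨d, hd'⟩ := hd _ (hf 0 x')
  have h0 : f 0 (d⁻¹ * x') = 1 := by rw [map_mul, map_inv, hd', inv_mul_cancel]
  have h1 : f (j - i) (d⁻¹ * x') ≠ 1 := by
    rwa [map_mul, map_inv, hd', Ne, inv_mul_eq_one, hx', hx', zero_add, sub_add_cancel]
  generalize d⁻¹ * x' = z, j - i = m at h0 h1
  by_cases h3 : f m z ^ 3 = 1
  swap
  · exact B z h0 ⟨m, h3⟩
  obtain ⟨c, hc⟩ := exists_β_ne (hf m z) fun e => h1 (by rwa [pow_succ, sq, e, one_mul] at h3)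
  obtain ⟨t, ht⟩ := hd _ (tv_mem_SpG c 1)
  refine B (z * t * z⁻¹ * t⁻¹) (by simp [h0]) ⟨m, fun e => ?_⟩
  have := tv_tv_sq2 h2 hc (k := 1) (by decide)
  simp only [map_mul, map_inv, ht, conj_tv (hf m z), tv_inv] at e
  have h4 := six _ this
  rw [six' _ (.inl e)] at h4
  exact hn h4.symm

include P in
theorem finrank3 : finrank K V = 3 := P.finrank_eq (m := 1) h2

theorem exists_smul2 (ha : a ≠ 0) (hv : v ∈ P.Ve a j) (h0 : v ≠ 0) {x : V} (hx : x ∈ P.Ve a j) :
    ∃ c : K, x = c • v := by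
  have h1 := P.three_mul_finrank_Ve ha j
  rw [P.finrank3 h2] at h1
  obtain ⟨c, hc⟩ := (finrank_eq_one_iff_of_nonzero' (⟨v, hv⟩ : P.Ve a j) (by simpa using h0)).1
    (show finrank K (P.Ve a j) = 1 by omega) ⟨x, hx⟩
  exact ⟨c, (congrArg Subtype.val hc).symm⟩

/-- diagonal elements of the normaliser have entries in one coset of the cube roots of unity -/
theorem cube_eq (hy : P.β u y = 1) (hg : g ∈ P.N) (hc : Commute g (P.ρ u)) (hv : v ∈ P.Ve u j)
    (h0 : v ≠ 0) {c d : K} (h1 : g v = c • v) (h3 : g (P.ρ y v) = d • P.ρ y v) : d ^ 3 = c ^ 3 := by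
  obtain ⟨s, l, h⟩ := exists_ind hg
  have h4 := (h.of_commute hc).1
  have h5 := coord2 h2 hy (s y)
  have h6 := h.β u y
  rw [h4, hy] at h6
  rw [h6, one_smul] at h5
  generalize -P.β y (s y) = m at h5
  have h7 := P.ρ_ρ y (m • u) v
  rw [ρ_smul_apply hv, map_smul, add_comm, ← h5] at h7
  have h8 := h.apply y v
  rw [h3, h1, map_smul] at h8
  have h9 : ((P.χ (-P.β y (m • u)) : K) * d) • P.ρ y v =
      (P.χ (l y) * c * P.χ (m * j) : K) • P.ρ y v := by
    rw [mul_smul, h8, mul_smul, h7]; module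
  have := congrArg (· ^ 3) (smul_left_injective K (by simpa using h0) h9)
  simpa only [mul_pow, χv_cube, one_mul, mul_one] using this

theorem det_of_inv (hab : P.β a b = 1) (hv : v ∈ P.Ve a 0) (h0 : v ≠ 0) {c : K} (h1 : g v = c • v)
    (h3 : g (P.ρ b v) = c • P.ρ (-b) v) (h4 : g (P.ρ (-b) v) = c • P.ρ b v) :
    (LinearEquiv.det g : K) = -c ^ 3 := by
  have := P.fd
  let e : ZMod 3 → V := fun j => P.ρ (j • b) v
  have he : ∀ j, e j ∈ P.Ve a j := fun j => by simpa [hab] using ρ_mem_Ve hv (j • b)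
  have hi : LinearIndependent K e := by
    rw [Fintype.linearIndependent_iff]
    intro c hc j
    have := (P.isDecProj a).apply_sum (fun i => (P.Ve a i).smul_mem (c i) (he i)) j
    rw [hc, map_zero, eq_comm, smul_eq_zero] at this
    exact this.resolve_right (by simpa [e] using h0)
  let B := basisOfLinearIndependentOfCardEqFinrank hi (by rw [P.finrank3 h2]; rfl)
  have hB : ⇑B = e := coe_basisOfLinearIndependentOfCardEqFinrank _ _
  have h5 := B.det_comp (g : V →ₗ[K] V) B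
  have h6 : (g : V →ₗ[K] V) ∘ B = fun j => c • (B ∘ Equiv.swap (1 : ZMod 3) (-1)) j := by
    funext j
    rw [hB]
    rcases z3_cases j with rfl | rfl | rfl
    · simpa [e, P.zero, Equiv.swap_apply_of_ne_of_ne (show (0 : ZMod 3) ≠ 1 by decide)
        (show (0 : ZMod 3) ≠ -1 by decide)] using h1
    · simpa [e] using h3
    · simpa [e] using h4
  rw [h6, B.det_self, mul_one] at h5
  rw [LinearEquiv.coe_det, ← h5]
  erw [MultilinearMap.map_smul_univ]
  simp only [Finset.prod_const, Finset.card_univ, ZMod.card, AlternatingMap.coe_multilinearMap]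
  rw [AlternatingMap.map_swap _ _ (by decide), B.det_self]
  simp

end two

end Pau

end Cfsg.Lib.Class.C3
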