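import Cfsg.Agent.Class.C3.Beta

/-!
# The special configuration
-/

namespace Cfsg.Lib.Class.C3

open Module C6

variable {K V W : Type*} [Field K] [AddCommGroup V] [Module K V] [AddCommGroup W]
  [Module (ZMod 3) W]

theorem comm_sc_mul (c d : Kˣ) (g h : V ≃ₗ[K] V) :
    sc V c * g * (sc V d * h) * (sc V c * g)⁻¹ * (sc V d * h)⁻¹ = g * h * g⁻¹ * h⁻¹ := by
  rw [mul_inv_rev, mul_inv_rev, ← map_inv, ← map_inv, sc_comm c⁻¹, sc_comm d⁻¹, sc_mul_sc_mul,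
    sc_mul_sc_mul, sc_mul_sc_mul, mul_right_comm c, mul_inv_cancel, one_mul, mul_inv_cancel,
    map_one, one_mul]

namespace Pau

variable (P : Pau K V W) {u w y a b : W} {i j k : ZMod 3} {v : V} {g : V ≃ₗ[K] V}
  {s : W ≃ₗ[ZMod 3] W} {l : W →ₗ[ZMod 3] ZMod 3} {X : Subgroup (V ≃ₗ[K] V)}

/-- the group induced on an eigenspace of `ρ u` by the pointwise stabiliser in `X` of the other
eigenspaces -/
def kerX (X : Subgroup (V ≃ₗ[K] V)) (u : W) (j : ZMod 3) :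
    Subgroup (P.Ve u j ≃ₗ[K] P.Ve u j) where
  carrier := {k | ∃ g ∈ X, (∀ v, (k v : V) = g v) ∧ ∀ i ≠ j, ∀ v ∈ P.Ve u i, g v = v}
  one_mem' := ⟨1, one_mem _, fun _ => rfl, fun _ _ _ _ => rfl⟩
  mul_mem' := by
    rintro a b ⟨g, hg, e, f⟩ ⟨g', hg', e', f'⟩
    exact ⟨g * g', mul_mem hg hg', fun v => by
      rw [LinearEquiv.mul_apply, LinearEquiv.mul_apply, e, e'], fun i hi v hv => by
      rw [LinearEquiv.mul_apply, f' i hi v hv, f i hi v hv]⟩
  inv_mem' := by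
    rintro a ⟨g, hg, e, f⟩
    refine ⟨g⁻¹, inv_mem hg, fun v => g.injective ?_, fun i hi v hv => g.injective ?_⟩
    · rw [← e, apply_inv_apply, apply_inv_apply]
    · rw [apply_inv_apply, f i hi v hv]

variable {P}

theorem conj_mem_kerX {k d : P.Ve u j ≃ₗ[K] P.Ve u j} (hk : k ∈ (P.rV X u j).range)
    (hd : d ∈ P.kerX X u j) : k * d * k⁻¹ ∈ P.kerX X u j := by
  obtain ⟨g, rfl⟩ := hk
  obtain ⟨hg, hc⟩ := P.mem_Cu.1 g.2
  obtain ⟨f, hf, e', h⟩ := hd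
  refine ⟨g * f * g.1⁻¹, mul_mem (mul_mem hg hf) (inv_mem hg), fun v => ?_, fun i hi v hv => ?_⟩
  · exact congrArg g.1 (e' _)
  · rw [LinearEquiv.mul_apply, LinearEquiv.mul_apply, h i hi _ (map_mem_Ve hc.inv_left hv),
      apply_inv_apply]

/-- the commutator of elements that are trivial on the two other eigenspaces -/
theorem comm_mem_kerX {x x' : P.Cu X u} (h1 : ∀ v ∈ P.Ve u (j + 1), x.1 v = v)
    (h2 : ∀ v ∈ P.Ve u (j - 1), x'.1 v = v) :
    P.rV X u j x * P.rV X u j x' * (P.rV X u j x)⁻¹ * (P.rV X u j x')⁻¹ ∈ P.kerX X u j := by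
  obtain ⟨hx, hc⟩ := P.mem_Cu.1 x.2
  obtain ⟨hx', hc'⟩ := P.mem_Cu.1 x'.2
  refine ⟨(x * x' * x⁻¹ * x'⁻¹ : P.Cu X u), (x * x' * x⁻¹ * x'⁻¹).2.1, fun v => rfl,
    fun i hi v hv => ?_⟩
  change x.1 (x'.1 (x.1⁻¹ (x'.1⁻¹ v))) = v
  have hv' := map_mem_Ve hc'.inv_left hv
  rcases (by decide : ∀ i j : ZMod 3, i ≠ j → i = j + 1 ∨ i = j - 1) i j hi with rfl | rfl
  · rw [← h1 _ hv', inv_apply_apply, apply_inv_apply, h1 v hv]
  · rw [h2 _ (map_mem_Ve hc.inv_left hv'), apply_inv_apply, ← h2 _ hv', apply_inv_apply]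

theorem eq_of_kerX {k : P.Ve u j ≃ₗ[K] P.Ve u j} (hk : k ∈ P.kerX X u j)
    (h1 : ∀ v, (k v : V) = g v) (h2 : ∀ i ≠ j, ∀ v ∈ P.Ve u i, g v = v) : g ∈ X := by
  obtain ⟨f, hf, e1, e2⟩ := hk
  rwa [P.ext_Ve u (g := g) (h := f) fun i v hv => ?_]
  by_cases hi : i = j
  · subst hi
    rw [← e1 ⟨v, hv⟩, h1]
  · rw [e2 i hi v hv, h2 i hi v hv]

theorem Ctl.exists_τ (h : P.H1 X) (hy : P.β u y = 1) (ha : a ∈ P.W1 u y) (hc : P.Ctl X a u)
    (m : ZMod 3) : ∃ x : P.Cu X u, ∀ i, ∀ v ∈ P.Ve u i,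
      x.1 v = (P.χ (i - m) : K) • P.τ a (m - i) v := by
  obtain ⟨g, hg, e, f⟩ := hc
  have h1 : ∀ i, ∀ v ∈ P.Ve u i, g v = (P.χ i : K) • P.τ a (-i) v := fun i v hv =>
    ext_Ve₂ ha.1 (f := g) (f' := (P.χ i : K) • (P.τ a (-i) : V →ₗ[K] V)) (fun j x h1 h2 => by
      simp only [LinearEquiv.coe_coe, LinearMap.smul_apply, τ_apply h2, smul_smul, χv_mul]
      by_cases hj : j = 0
      · subst hj; rw [e x h2, P.mem_Ve.1 h1]; simp
      · rw [f j hj x h2, mul_assoc, z3_mul_self hj]; simp) hv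
  have h2 : ∀ i, ∀ v ∈ P.Ve u i, (P.ρ (m • y) * g * P.ρ (-(m • y))) v =
      (P.χ (i - m) : K) • P.τ a (m - i) v := fun i v hv => by
    rw [LinearEquiv.mul_apply, LinearEquiv.mul_apply, h1 (i - m) _ (by
      simpa [hy, sub_eq_add_neg] using ρ_mem_Ve hv (-(m • y))), map_smul, commute_apply
        (commute_τ (P.commute_ρ (by simp [(P.mem_W1.1 ha).2])) _), ρ_ρ_neg, neg_sub]
  exact ⟨⟨_, P.mem_Cu.2 ⟨mul_mem (mul_mem (h.ρ _) hg) (h.ρ _), commute_of_Ve fun i v hv => by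
    rw [h2 i v hv]
    exact Submodule.smul_mem _ _ (map_mem_Ve (commute_τ (P.commute_ρ ha.1) _).symm hv)⟩⟩, h2⟩

theorem comm_τ_mem_kerX (h : P.H1 X) (hy : P.β u y = 1) (a b : P.W1 u y) (ha : P.Ctl X a u)
    (hb : P.Ctl X b u) : (P.res hy 0).τ a 1 * (P.res hy 0).τ b (-1) * ((P.res hy 0).τ a 1)⁻¹ *
      ((P.res hy 0).τ b (-1))⁻¹ ∈ P.kerX X u 0 := by
  obtain ⟨x, hx⟩ := ha.exists_τ h hy a.2 1
  obtain ⟨x', hx'⟩ := hb.exists_τ h hy b.2 (-1)
  have e : P.rV X u 0 x = C6.sc _ (P.χ (-1)) * (P.res hy 0).τ a 1 := LinearEquiv.ext fun v =>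
    Subtype.ext ((hx 0 v v.2).trans (by
      simp only [zero_sub, sub_zero]; exact congrArg _ (sub_τ a 1 v).symm))
  have e' : P.rV X u 0 x' = C6.sc _ (P.χ 1) * (P.res hy 0).τ b (-1) := LinearEquiv.ext fun v =>
    Subtype.ext ((hx' 0 v v.2).trans (by
      simp only [zero_sub, sub_zero, neg_neg]; exact congrArg _ (sub_τ b (-1) v).symm))
  have := comm_mem_kerX (j := 0) (x := x) (x' := x')
    (fun v hv => by simpa [τ_zero] using hx _ v hv) (fun v hv => by simpa [τ_zero] using hx' _ v hv)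
  rwa [e, e', comm_sc_mul] at this

/-- in dimension three the normaliser is generated by `R` and the `τ a k` -/
theorem H1.N_le (h : P.H1 X) (h2 : finrank (ZMod 3) W = 2) : P.N ≤ X := fun g hg => by
  obtain ⟨s, l, e⟩ := Pau.exists_ind hg
  obtain ⟨n, hn, e'⟩ := h.exists_ind (SpG_le_TV h2 e.mem_SpG)
  have := e'.inv.mul e
  rw [inv_mul_cancel] at this
  exact (X.mul_mem_cancel_left (inv_mem hn)).1 (h.1 this.mem_R)

variable (h4 : finrank (ZMod 3) W = 4)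
include h4

/-- the special configuration does not occur in odd characteristic -/
theorem Loc.not_spec (hL : P.Loc X) (h : P.H1 X) (h2 : (2 : K) ≠ 0) (hu : u ≠ 0) : ¬ P.Spec X u := by
  intro hS
  obtain ⟨y, hy⟩ := P.exists_β_eq_one hu
  obtain ⟨w, hw, x, hx, hwx⟩ := exists_W1 h4 hy
  have hW := finrank_W1_two h4 hy
  have hS' : ∀ a ≠ 0, P.Spec X a := fun a ha => hS.conj h hu ha
  let w' : P.W1 u y := ⟨w, hw⟩
  let x' : P.W1 u y := ⟨x, hx⟩
  have hq := comm_τ_mem_kerX h hy w' (w' + x') (hS' w (ne_zero_of_β hwx) u (P.β_comm0 hw.1))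
    (hS' (w + x) (fun e => by simpa [P.alt, hwx] using congrArg (P.β w) e) u
      (P.β_comm0 (w' + x').2.1))
  set Q := P.res hy 0
  have hwx' : Q.β w' x' = 1 := hwx
  have hd : LinearEquiv.det (Q.τ w' 1 * Q.τ (w' + x') (-1) * (Q.τ w' 1)⁻¹ *
      (Q.τ (w' + x') (-1))⁻¹) = 1 := by simp
  have e1 : Q.τ w' 1 * Q.τ (w' + x') (-1) * (Q.τ w' 1)⁻¹ = Q.τ x' (-1) := by
    refine conj_τ0 ?_ _
    rw [Q.ind_τ, tv_apply]
    simp [Q.alt, Q.β_swap x' w', hwx']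
  rw [e1, τ_inv, neg_neg] at hq hd
  have hI := ((Q.ind_τ x' (-1)).mul (Q.ind_τ (w' + x') 1)).mul
    ((Q.ind_τ x' (-1)).mul (Q.ind_τ (w' + x') 1))
  have e2 := tv_tv_sq2 hW (P := Q) (a := x') (b := w' + x') (k := -1)
    (by simp [Q.alt, Q.β_swap x' w', hwx']) (by decide)
  rw [neg_neg] at e2
  rw [e2] at hI
  replace hq := mul_mem hq hq
  replace hd : LinearEquiv.det (Q.τ x' (-1) * Q.τ (w' + x') 1 * (Q.τ x' (-1) * Q.τ (w' + x') 1)) =
    1 := by rw [map_mul, hd, one_mul]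
  generalize Q.τ x' (-1) * Q.τ (w' + x') 1 * (Q.τ x' (-1) * Q.τ (w' + x') 1) = z at hq hd hI
  replace hI : Q.Ind z (ng _) 0 := hI.congr (fun _ => rfl) (by simp)
  have hz : ∀ j, ∀ v ∈ Q.Ve w' j, z v ∈ Q.Ve w' (-j) := fun j v hv => by
    simpa using mem_Ve_neg (map_mem_Ve_of_conj (hI w') hv)
  obtain ⟨e, he, he0⟩ := exists_mem_Ve (P := Q) (ne_zero_of_β hwx') 0
  obtain ⟨δ, hδ⟩ := exists_smul2 hW (ne_zero_of_β hwx') he he0 (by simpa using hz 0 e he)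
  have h3 := det_of_inv hW hwx' he he0 hδ (by simp [hI.apply, hδ]) (by simp [hI.apply, hδ])
  obtain ⟨D, hD, d1, d2⟩ := hq
  obtain ⟨π, hπ, p1, p2⟩ := hS' w (ne_zero_of_β hwx) y (P.β_comm0 hw.2)
  have hπc : Commute π (P.ρ w) := commute_of_Ve fun i v hv => by
    by_cases hi : i = 0
    · subst hi; rw [p1 v hv]; exact ρ_mem_Ve' hv (P.β_comm0 hw.2)
    · rwa [p2 i hi v hv]
  have d0 : ∀ v ∈ P.Ve u 0, v ∈ P.Ve w 0 → D v = δ • v := fun v h1 h2 => by
    obtain ⟨c, hc⟩ := exists_smul2 hW (ne_zero_of_β hwx') he he0 (x := ⟨v, h1⟩) (mem_sub_Ve.2 h2)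
    rw [← d1 ⟨v, h1⟩, hc, map_smul, hδ, smul_comm, ← hc]; rfl
  have d3 : ∀ i, ∀ v ∈ P.Ve u i, v ∈ P.Ve w 0 → D v = (if i = 0 then δ else 1) • v :=
    fun i v h1 h2 => by
      split_ifs with hi
      · exact d0 v (hi ▸ h1) h2
      · rw [d2 i hi v h1, one_smul]
  have hδ0 : δ ≠ 0 := by rintro rfl; simp [he0] at hδ
  have d4 : ∀ i, ∀ v ∈ P.Ve u i, v ∈ P.Ve w 0 → D⁻¹ v = (if i = 0 then δ else 1)⁻¹ • v :=
    fun i v h1 h2 => D.injective (by
      rw [apply_inv_apply, map_smul, d3 i v h1 h2, smul_smul, inv_mul_cancel₀ (by split_ifs <;> simp [hδ0]),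
        one_smul])
  have g0 : ∀ i, ∀ v ∈ P.Ve u i, v ∈ P.Ve w 0 → (D⁻¹ * π⁻¹ * D * π) v =
      ((if i + 1 = 0 then δ else 1) * (if i = 0 then δ else 1)⁻¹) • v := fun i v h1 h2 => by
    have h5 := p1 v h2
    simp only [LinearEquiv.mul_apply]
    rw [d3 (i + 1) _ (by rw [h5, ← hy]; exact ρ_mem_Ve h1 y) (map_mem_Ve hπc h2), map_smul,
      inv_apply_apply, map_smul, d4 i v h1 h2, smul_smul]
  have g1 : ∀ j ≠ 0, ∀ v ∈ P.Ve w j, (D⁻¹ * π⁻¹ * D * π) v = v := fun j hj v hv => by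
    have : π (D v) = D v := ext_Ve₂ (P.β_comm0 hw.1) (f := (π * D : V ≃ₗ[K] V)) (f' := D)
      (fun i x h1 h2 => by
        by_cases hi : i = 0
        · subst hi
          exact p2 (-j) (neg_ne_zero.2 hj) _ (d1 ⟨x, h2⟩ ▸ mem_sub_Ve.1 (hz j _ (mem_sub_Ve.2 h1)))
        · simp only [LinearEquiv.coe_coe, LinearEquiv.mul_apply, d2 i hi x h2, p2 j hj x h1]) hv
    simp only [LinearEquiv.mul_apply]
    rw [p2 j hj v hv, ← this, inv_apply_apply, inv_apply_apply]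
  have hG : D⁻¹ * π⁻¹ * D * π ∈ P.Cu X w := P.mem_Cu.2
    ⟨mul_mem (mul_mem (mul_mem (inv_mem hD) (inv_mem hπ)) hD) hπ, commute_of_Ve fun j v hv => by
      by_cases hj : j = 0
      · subst hj
        rw [← (P.isDecProj u).sum v, map_sum]
        refine sum_mem fun i _ => ?_
        have := pr_mem_of_inv (fun _ hx => ρ_mem_Ve' hx (P.β_comm0 hw.1)) hv i
        rw [g0 i _ (P.pr_mem ..) this]
        exact Submodule.smul_mem _ _ this
      · rwa [g1 j hj v hv]⟩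
  let u' : P.W1 w x := ⟨u, P.β_comm0 hw.1, P.β_comm0 hx.1⟩
  let y' : P.W1 w x := ⟨y, P.β_comm0 hw.2, P.β_comm0 hx.2⟩
  obtain ⟨v, hv, hv0⟩ := exists_mem_Ve (P := P.res hwx 0) (u := u')
    (fun h => hu (congrArg Subtype.val h)) 1
  have h5 := cube_eq (finrank_W1_two h4 hwx) (P := P.res hwx 0) (u := u') (y := y') hy
    (hL w x hwx 0 ⟨⟨_, hG⟩, rfl⟩) (commute_of_Ve fun i v hv => mem_sub_Ve.2 (by
      change (D⁻¹ * π⁻¹ * D * π) v.1 ∈ P.Ve u i
      rw [g0 i v (mem_sub_Ve.1 hv) v.2]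
      exact Submodule.smul_mem _ _ (mem_sub_Ve.1 hv))) hv hv0
    (Subtype.ext (g0 1 _ (mem_sub_Ve.1 hv) v.2))
    (Subtype.ext (g0 (1 + 1) _ (hy ▸ ρ_mem_Ve (mem_sub_Ve.1 hv) y) ((P.res hwx 0).ρ y' v).2))
  rw [if_pos (by decide), if_neg (by decide), if_neg (by decide)] at h5
  rw [hd] at h3
  simp only [inv_one, mul_one, one_pow, Units.val_one] at h3 h5
  exact h2 (by linear_combination h3 - h5)

/-- in the special configuration over the field with four elements the pointwise stabilisers induce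
all elements of determinant one of the Clifford groups -/
theorem Spec.inf_le_kerX (h : P.H1 X) (h3 : ∀ c : Kˣ, c ^ 3 = 1) (hy : P.β u y = 1)
    (hS : P.Spec X u) : (P.res hy 0).N ⊓ SLV K _ ≤ P.kerX X u 0 := by
  have hW := finrank_W1_two h4 hy
  have hu := ne_zero_of_β hy
  set Q := P.res hy 0
  let H := P.kerX X u 0 ⊓ SLV K _
  have hR : Q.R ≤ H := by
    rintro _ ⟨c, w, rfl⟩
    obtain ⟨m, rfl⟩ := P.exists_χ (h3 c)
    refine ⟨?_, by simp [Q.det_sc', Q.det_ρ, Q.finrank3 hW, h3]⟩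
    obtain ⟨g, hg, e, f⟩ := hS w w.2.1
    let d := P.blk u (fun i => C6.sc V (P.χ (if i = 0 then m else 0))) fun _ => (commute_sc _ _).symm
    have hd : ∀ i, ∀ v ∈ P.Ve u i, d v = (P.χ (if i = 0 then m else 0) : K) • v :=
      fun i v hv => blk_apply _ hv
    refine ⟨g * d, mul_mem hg (h.mem_of_dg (c := 1) fun i v hv => by
      rw [hd i v hv, Units.val_one, one_mul]), fun v => ?_, fun i hi v hv => ?_⟩
    · simp only [LinearEquiv.mul_apply, hd 0 v v.2, map_smul, e v v.2]; rfl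
    · simp [LinearEquiv.mul_apply, hd i v hv, hi, f i hi v hv]
  let A := (P.rV X u 0).range
  have hA : Q.H1 A := h.res hy 0
  have : (H.subgroupOf A).Normal := ⟨fun d hd k => ⟨conj_mem_kerX k.2 hd.1, by
    have : LinearEquiv.det d.1 = 1 := hd.2
    simp [this]⟩⟩
  let f := QuotientGroup.mk' (H.subgroupOf A)
  let t : P.W1 u y → ZMod 3 → A := fun a k => ⟨Q.τ a k, hA.2 a k⟩
  have t0 : ∀ a, t a 0 = 1 := fun a => Subtype.ext τ_zero
  have t1 : ∀ a, t a (-1) = (t a 1)⁻¹ := fun a => Subtype.ext (τ_inv a 1).symm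
  have c1 : ∀ a b, Commute (f (t a 1)) (f (t b 1)) := fun a b => by
    by_cases ha : a = 0
    · rw [ha, show t 0 1 = 1 from Subtype.ext (τ_zero_left 1), map_one]; exact Commute.one_left _
    by_cases hb : b = 0
    · rw [hb, show t 0 1 = 1 from Subtype.ext (τ_zero_left 1), map_one]; exact Commute.one_right _
    rw [← Commute.inv_right_iff, ← map_inv, ← t1, ← commutatorElement_eq_one_iff_commute,
      ← map_commutatorElement]
    exact (QuotientGroup.eq_one_iff _).2 ⟨comm_τ_mem_kerX h hy a b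
      (hS.conj h hu (by simpa using ha) u (P.β_comm0 a.2.1))
      (hS.conj h hu (by simpa using hb) u (P.β_comm0 b.2.1)), by
        simp [commutatorElement_def, t]⟩
  have c2 : ∀ a k b, Commute (f (t a k)) (f (t b 1)) := fun a k b => by
    rcases z3_cases k with rfl | rfl | rfl
    · rw [t0, map_one]; exact Commute.one_left _
    · exact c1 a b
    · rw [t1, map_inv]; exact (c1 a b).inv_left
  have := nontriv2 hW
  obtain ⟨a, ha⟩ := exists_ne (0 : P.W1 u y)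
  have key : ∀ s ∈ Q.TV, ∃ n : A, Q.Ind n s 0 ∧ ∀ b, Commute (f n) (f (t b 1)) := fun s hs => by
    induction hs using Subgroup.closure_induction with
    | mem s hs => obtain ⟨b, k, rfl⟩ := hs; exact ⟨t b k, Q.ind_τ b k, c2 b k⟩
    | one => exact ⟨1, ind_one, fun b => by simp⟩
    | mul s s' _ _ hs ht =>
      obtain ⟨n, e, hn⟩ := hs
      obtain ⟨m, e', hm⟩ := ht
      exact ⟨n * m, (e.mul e').congr (fun _ => rfl) (by simp), fun b => by
        rw [map_mul]; exact (hn b).mul_left (hm b)⟩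
    | inv s _ hs =>
      obtain ⟨n, e, hn⟩ := hs
      exact ⟨n⁻¹, e.inv.congr (fun _ => rfl) (by simp), fun b => by
        rw [map_inv]; exact (hn b).inv_left⟩
  have c3 : ∀ b ≠ 0, f (t b 1) = f (t a 1) := fun b hb => by
    obtain ⟨s, hs, rfl⟩ := Q.exists_TV_apply ha hb
    obtain ⟨n, e, hn⟩ := key s hs
    rw [show t (s a) 1 = n * t a 1 * n⁻¹ from Subtype.ext (conj_τ0 (by simpa using e a) 1).symm,
      map_mul, map_mul, map_inv, (hn a).eq, mul_inv_cancel_right]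
  have tadd : ∀ k m, t a (k + m) = t a k * t a m := fun k m => Subtype.ext (τ_add a k m)
  have key' : ∀ s ∈ Q.TV, ∃ n : A, Q.Ind n s 0 ∧ ∃ m, f n = f (t a m) := fun s hs => by
    induction hs using Subgroup.closure_induction with
    | mem s hs =>
      obtain ⟨b, k, rfl⟩ := hs
      refine ⟨t b k, Q.ind_τ b k, ?_⟩
      by_cases hb : b = 0
      · exact ⟨0, by rw [hb, t0]; exact congrArg f (Subtype.ext (τ_zero_left k))⟩
      · refine ⟨k, ?_⟩
        rcases z3_cases k with rfl | rfl | rfl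
        · rw [t0, t0]
        · exact c3 b hb
        · rw [t1, t1, map_inv, map_inv, c3 b hb]
    | one => exact ⟨1, ind_one, 0, by rw [t0]⟩
    | mul s s' _ _ hs ht =>
      obtain ⟨n, e, k, hn⟩ := hs
      obtain ⟨m, e', k', hm⟩ := ht
      exact ⟨n * m, (e.mul e').congr (fun _ => rfl) (by simp), k + k', by
        rw [map_mul, hn, hm, tadd, map_mul]⟩
    | inv s _ hs =>
      obtain ⟨n, e, k, hn⟩ := hs
      exact ⟨n⁻¹, e.inv.congr (fun _ => rfl) (by simp), -k, by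
        rw [map_inv, hn, ← map_inv]; exact congrArg f (Subtype.ext (τ_inv a k))⟩
  rintro g ⟨hg, hg'⟩
  obtain ⟨s, l, e⟩ := exists_ind hg
  obtain ⟨n, e', m, hm⟩ := key' s (SpG_le_TV hW e.mem_SpG)
  have h5 := e'.inv.mul e
  rw [inv_mul_cancel] at h5
  have h6 : (Q.τ a m)⁻¹ * g ∈ H := by
    have h0 : (Q.τ a m)⁻¹ * n.1 ∈ H := (QuotientGroup.eq (a := t a m) (b := n)).1 hm.symm
    have := H.mul_mem h0 (hR h5.mem_R)
    rwa [mul_assoc, mul_inv_cancel_left] at this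
  have h7 : LinearEquiv.det ((Q.τ a m)⁻¹ * g) = 1 := h6.2
  have h8 := Q.three_mul_finrank_Ve ha 0
  rw [Q.finrank3 hW] at h8
  rw [map_mul, show LinearEquiv.det g = 1 from hg', mul_one, map_inv, inv_eq_one, det_τ ha,
    show finrank K (Q.Ve a 0) = 1 by omega, sq, ← χ_add, add_self3] at h7
  have := (Q.χ_eq_one h7)
  rw [neg_eq_zero.1 this, τ_zero, inv_one, one_mul] at h6
  exact h6.1

end Pau

end Cfsg.Lib.Class.C3
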